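import Mathlib
import Cfsg.Agent.Helper26.FusAbelian

set_option autoImplicit false
open Cfsg Cfsg.FusionSystem

namespace Cfsg.Agent.Helper26

theorem zmod_pow_odd {M e : ℕ} (hM : M = 2 ^ e) (he : 0 < e) (u : ZMod M) (N : ℕ) (hN : Odd N)
    (h : u ^ N = 1) : u = 1 := by
  subst hM
  have hN0 : N ≠ 0 := (Odd.pos hN).ne'
  obtain ⟨v, rfl⟩ := IsUnit.of_pow_eq_one h hN0
  have hv : v ^ N = 1 := Units.ext (by rw [Units.val_pow_eq_pow_val, h, Units.val_one])
  have hφ : v ^ (2 ^ e).totient = 1 := ZMod.pow_totient v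
  have h1 : orderOf v ∣ N := orderOf_dvd_of_pow_eq_one hv
  have h2 : orderOf v ∣ (2 ^ e).totient := orderOf_dvd_of_pow_eq_one hφ
  have hcop : Nat.Coprime N (2 ^ e).totient := by
    rw [Nat.totient_prime_pow Nat.prime_two he]
    exact Nat.Coprime.mul_right (Nat.Coprime.pow_right _ (Nat.coprime_two_right.mpr hN))
      (by simp)
  have h3 : orderOf v ∣ 1 := by
    have := Nat.dvd_gcd h1 h2
    rwa [Nat.Coprime.gcd_eq_one hcop] at this
  rw [orderOf_eq_one_iff.mp (Nat.dvd_one.mp h3), Units.val_one]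

theorem zmod_mul_odd {M e : ℕ} (hM : M = 2 ^ e) (j : ZMod M) (N : ℕ) (hN : Odd N)
    (h : (N : ZMod M) * j = 0) : j = 0 := by
  subst hM
  have hu : IsUnit ((N : ℕ) : ZMod (2 ^ e)) :=
    (ZMod.isUnit_iff_coprime N (2 ^ e)).mpr
      (Nat.Coprime.pow_right _ (Nat.coprime_two_right.mpr hN))
  exact (IsUnit.mul_right_eq_zero hu).mp h

theorem aut_eq_one_of_odd {G : Type*} [Group G] {M e : ℕ} (hM : M = 2 ^ e) (he : 0 < e)
    (A B : ZMod M → G) (hcases : ∀ g : G, (∃ i, g = A i) ∨ ∃ i, g = B i)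
    (hAB : ∀ i j, A i ≠ B j) (hA : ∀ i j, A i * A j = A (i + j))
    (hBA : ∀ i j, B i * A j = B (i + j)) (hAinj : Function.Injective A)
    (hBinj : Function.Injective B) (hord : ∀ j, orderOf (B j) ≠ orderOf (A 1))
    (φ : MulAut G) (N : ℕ) (hN : Odd N) (hφ : φ ^ N = 1) : φ = 1 := by
  haveI : NeZero M := ⟨by rw [hM]; positivity⟩
  have hA0 : A 0 = 1 := by
    have := hA 0 0
    rw [add_zero] at this
    exact mul_left_cancel (this.trans (mul_one _).symm)
  have hApow : ∀ (c : ZMod M) (t : ℕ), A c ^ t = A ((t : ZMod M) * c) := by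
    intro c t
    induction t with
    | zero => rw [pow_zero, Nat.cast_zero, zero_mul, hA0]
    | succ t ih =>
      rw [pow_succ, ih, hA]
      congr 1
      push_cast
      ring
  obtain ⟨u, hu⟩ : ∃ u, φ (A 1) = A u := by
    rcases hcases (φ (A 1)) with ⟨i, hi⟩ | ⟨j, hj⟩
    · exact ⟨i, hi⟩
    · exfalso
      apply hord j
      rw [← hj, MulEquiv.orderOf_eq]
  have hφA : ∀ i, φ (A i) = A (i * u) := by
    intro i
    have h1 : A i = A 1 ^ i.val := by
      rw [hApow, mul_one, ZMod.natCast_zmod_val]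
    rw [h1, map_pow, hu, hApow, ZMod.natCast_zmod_val]
  have hiter : ∀ t : ℕ, (φ ^ t) (A 1) = A (u ^ t) := by
    intro t
    induction t with
    | zero => simp
    | succ t ih => rw [pow_succ' φ t, MulAut.mul_apply, ih, hφA, pow_succ]
  have hu1 : u = 1 := by
    apply zmod_pow_odd hM he u N hN
    apply hAinj
    have := hiter N
    rw [hφ] at this
    exact this.symm
  have hφA' : ∀ i, φ (A i) = A i := by
    intro i; rw [hφA, hu1, mul_one]
  obtain ⟨j, hj⟩ : ∃ j, φ (B 0) = B j := by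
    rcases hcases (φ (B 0)) with ⟨i, hi⟩ | ⟨j, hj⟩
    · exfalso
      have : φ (B 0) = φ (A i) := hi.trans (hφA' i).symm
      exact hAB i 0 (φ.injective this).symm
    · exact ⟨j, hj⟩
  have hφB : ∀ c, φ (B c) = B (j + c) := by
    intro c
    have h1 : B c = B 0 * A c := by rw [hBA, zero_add]
    rw [h1, map_mul, hj, hφA', hBA]
  have hiterB : ∀ t : ℕ, (φ ^ t) (B 0) = B ((t : ZMod M) * j) := by
    intro t
    induction t with
    | zero => simp
    | succ t ih =>
      rw [pow_succ' φ t, MulAut.mul_apply, ih, hφB]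
      congr 1
      push_cast
      ring
  have hj0 : j = 0 := by
    apply zmod_mul_odd hM j N hN
    apply hBinj
    have := hiterB N
    rw [hφ] at this
    exact this.symm
  apply MulEquiv.ext
  intro g
  rcases hcases g with ⟨i, rfl⟩ | ⟨i, rfl⟩
  · exact hφA' i
  · have := hφB i
    rw [hj0, zero_add] at this
    exact this

theorem dihedral_aut_odd (k : ℕ) (hk : 3 ≤ k) (φ : MulAut (DihedralGroup (2 ^ k))) (N : ℕ)
    (hN : Odd N) (hφ : φ ^ N = 1) : φ = 1 := by
  refine aut_eq_one_of_odd (M := 2 ^ k) (e := k) rfl (by omega) DihedralGroup.r DihedralGroup.sr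
    ?_ ?_ ?_ ?_ ?_ ?_ ?_ φ N hN hφ
  · intro g
    cases g with
    | r i => exact Or.inl ⟨i, rfl⟩
    | sr i => exact Or.inr ⟨i, rfl⟩
  · intro i j h; cases h
  · exact DihedralGroup.r_mul_r
  · exact DihedralGroup.sr_mul_r
  · intro i j h; exact DihedralGroup.r.inj h
  · intro i j h; exact DihedralGroup.sr.inj h
  · intro j
    rw [DihedralGroup.orderOf_sr, DihedralGroup.orderOf_r_one]
    intro h
    have h8 : 2 ^ 3 ≤ 2 ^ k := Nat.pow_le_pow_right (by norm_num) hk
    norm_num at h8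
    omega

theorem quaternion_aut_odd (k : ℕ) (hk : 2 ≤ k) (φ : MulAut (QuaternionGroup (2 ^ k))) (N : ℕ)
    (hN : Odd N) (hφ : φ ^ N = 1) : φ = 1 := by
  haveI : NeZero (2 ^ k) := ⟨by positivity⟩
  refine aut_eq_one_of_odd (M := 2 * 2 ^ k) (e := k + 1) (pow_succ' 2 k).symm (by omega)
    QuaternionGroup.a QuaternionGroup.xa ?_ ?_ ?_ ?_ ?_ ?_ ?_ φ N hN hφ
  · intro g
    cases g with
    | a i => exact Or.inl ⟨i, rfl⟩
    | xa i => exact Or.inr ⟨i, rfl⟩
  · intro i j h; cases h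
  · exact QuaternionGroup.a_mul_a
  · exact QuaternionGroup.xa_mul_a
  · intro i j h; exact QuaternionGroup.a.inj h
  · intro i j h; exact QuaternionGroup.xa.inj h
  · intro j
    rw [QuaternionGroup.orderOf_xa, QuaternionGroup.orderOf_a_one]
    intro h
    have h4 : 2 ^ 2 ≤ 2 ^ k := Nat.pow_le_pow_right (by norm_num) hk
    norm_num at h4
    omega

theorem aut_eq_one_of_equiv {S G : Type*} [Group S] [Group G] (e : S ≃* G)
    (h : ∀ (φ : MulAut G) (N : ℕ), Odd N → φ ^ N = 1 → φ = 1)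
    (α : MulAut S) (N : ℕ) (hN : Odd N) (hα : α ^ N = 1) : α = 1 := by
  have := h (MulAut.congr e α) N hN (by rw [← map_pow, hα, map_one])
  exact (MulAut.congr e).injective (this.trans (map_one _).symm)

theorem isPGroup_two_of_odd_trivial {A : Type*} [Group A] [Finite A]
    (h : ∀ (φ : A) (N : ℕ), Odd N → φ ^ N = 1 → φ = 1) : IsPGroup 2 A := by
  intro α
  have ho : orderOf α ≠ 0 := (isOfFinOrder_of_finite α).orderOf_pos.ne'
  obtain ⟨a, N, hN, hoe⟩ := Nat.exists_eq_two_pow_mul_odd ho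
  refine ⟨a, h (α ^ 2 ^ a) N hN ?_⟩
  rw [← pow_mul, ← hoe, pow_orderOf_eq_one]

end Cfsg.Agent.Helper26
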