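import Mathlib
import Cfsg.Agent.Helper26.LargeXS2

/-!
Large extraspecial 2-subgroups, part 3 (helper26): the group `X = ⟨Q, Q'⟩` for a pair of
orthogonal singular involutions `z`, `x` (`Q' = Q^g`, `x = z^g ∈ Q`).

`pair_X`: `R = C_{Q'}(z) C_Q(x) = X ∩ C(V) = O_2(X)`, `X / R ≅ S_3`, `N(V) = X C(V)`.
-/

set_option autoImplicit false

namespace Cfsg.Agent.Helper26.LargeXS3

open Cfsg Cfsg.Agent.Helper14.XS Cfsg.Agent.Helper26.LargeXS Cfsg.Agent.Helper26.Singular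
  Cfsg.Agent.Helper26.LargeXS2

variable {G : Type*} [Group G]

/-- `index6` for an arbitrary subgroup of the normalizer containing the two transpositions. -/
theorem index6N [Finite G] {z x : G} (hzz : z * z = 1) (hxx : x * x = 1) (hc : x * z = z * x)
    (hz1 : z ≠ 1) (hx1 : x ≠ 1) (hxz : x ≠ z)
    (V : Subgroup G) (hzV : z ∈ V) (hxV : x ∈ V)
    (hVle : ∀ A : Subgroup G, z ∈ A → x ∈ A → V ≤ A)
    (N : Subgroup G) (hNV : N ≤ Subgroup.normalizer (V : Set G))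
    {q q' : G} (hqN : q ∈ N) (hqN' : q' ∈ N)
    (hq1 : SemiconjBy q z z) (hq2 : SemiconjBy q x (z * x))
    (hq1' : SemiconjBy q' x x) (hq2' : SemiconjBy q' z (z * x)) :
    (Subgroup.centralizer (V : Set G)).relIndex N = 6 := by
  classical
  have hVel : ∀ v ∈ V, v = 1 ∨ v = z ∨ v = x ∨ v = z * x := by
    intro v hv
    exact mem_four.mp (hVle (four z x hzz hxx hc) (mem_four.mpr (Or.inr (Or.inl rfl)))
      (mem_four.mpr (Or.inr (Or.inr (Or.inl rfl)))) hv)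
  have hq3 : SemiconjBy q (z * x) x := by
    have h2 : SemiconjBy q (z * x) (z * (z * x)) := hq1.mul_right hq2
    have e : z * (z * x) = x := by rw [← mul_assoc, hzz, one_mul]
    rw [e] at h2
    exact h2
  have hq3' : SemiconjBy q' (z * x) z := by
    have h2 : SemiconjBy q' (z * x) ((z * x) * x) := hq2'.mul_right hq1'
    have e : (z * x) * x = z := by rw [mul_assoc, hxx, mul_one]
    rw [e] at h2
    exact h2
  letI : MulAction ↥N (Pr G) := pairAct _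
  have hsmul : ∀ (n : ↥N) (p : Pr G),
      n • p = ⟨(n : G) * p.fst * (n : G)⁻¹, (n : G) * p.snd * (n : G)⁻¹⟩ := fun _ _ => rfl
  have hstab : MulAction.stabilizer ↥N (⟨z, x⟩ : Pr G) =
      (Subgroup.centralizer (V : Set G)).subgroupOf N := by
    ext n
    rw [MulAction.mem_stabilizer_iff, hsmul, Subgroup.mem_subgroupOf, Pr.mk.injEq]
    constructor
    · rintro ⟨h1, h2⟩
      have h1' : (n : G) * z * (n : G)⁻¹ = z := h1
      have h2' : (n : G) * x * (n : G)⁻¹ = x := h2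
      have hle : V ≤ cen (n : G) := by
        apply hVle
        · rw [mem_cen]
          calc z * (n : G) = ((n : G) * z * (n : G)⁻¹) * (n : G) := by rw [h1']
            _ = (n : G) * z := by group
        · rw [mem_cen]
          calc x * (n : G) = ((n : G) * x * (n : G)⁻¹) * (n : G) := by rw [h2']
            _ = (n : G) * x := by group
      rw [Subgroup.mem_centralizer_iff]
      intro v hv
      exact mem_cen.mp (hle hv)
    · intro h
      rw [Subgroup.mem_centralizer_iff] at h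
      have h1 : z * (n : G) = (n : G) * z := h z hzV
      have h2 : x * (n : G) = (n : G) * x := h x hxV
      constructor
      · show (n : G) * z * (n : G)⁻¹ = z
        rw [← h1, mul_inv_cancel_right]
      · show (n : G) * x * (n : G)⁻¹ = x
        rw [← h2, mul_inv_cancel_right]
  have h0 : (⟨z, x⟩ : Pr G) ∈
      MulAction.orbit ↥N (⟨z, x⟩ : Pr G) :=
    MulAction.mem_orbit_self _
  have hstep : ∀ (n : G) (hn : n ∈ N) (a b a' b' : G),
      SemiconjBy n a a' → SemiconjBy n b b' →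
      (⟨a, b⟩ : Pr G) ∈ MulAction.orbit ↥N (⟨z, x⟩ : Pr G) →
      (⟨a', b'⟩ : Pr G) ∈
        MulAction.orbit ↥N (⟨z, x⟩ : Pr G) := by
    intro n hn a b a' b' ha hb hm
    have h1 := MulAction.mem_orbit_of_mem_orbit
      (⟨n, hn⟩ : ↥N) hm
    rw [hsmul] at h1
    have e1 : n * a * n⁻¹ = a' := by rw [ha.eq, mul_inv_cancel_right]
    have e2 : n * b * n⁻¹ = b' := by rw [hb.eq, mul_inv_cancel_right]
    rw [← e1, ← e2]
    exact h1
  have h1 := hstep q hqN _ _ _ _ hq1 hq2 h0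
  have h2 := hstep q' hqN' _ _ _ _ hq2' hq3' h1
  have h3 := hstep q hqN _ _ _ _ hq3 hq1 h2
  have h4 := hstep q' hqN' _ _ _ _ hq1' hq2' h3
  have h5 := hstep q hqN _ _ _ _ hq2 hq3 h4
  have hzxz : z * x ≠ z := fun h => hx1 (mul_left_cancel (h.trans (mul_one z).symm))
  have hzxx : z * x ≠ x := fun h => hz1 (mul_right_cancel (h.trans (one_mul x).symm))
  have hzx' : z ≠ x := fun h => hxz h.symm
  have horb : MulAction.orbit ↥N (⟨z, x⟩ : Pr G) =
      ({⟨z, x⟩, ⟨z, z * x⟩, ⟨z * x, z⟩, ⟨x, z⟩, ⟨x, z * x⟩, ⟨z * x, x⟩} : Set (Pr G)) := by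
    apply Set.Subset.antisymm
    · intro p hp
      obtain ⟨n, hn⟩ := MulAction.mem_orbit_iff.mp hp
      rw [← hn, hsmul]
      have ha : (n : G) * z * (n : G)⁻¹ ∈ V := (Subgroup.mem_normalizer_iff.mp (hNV n.2) z).mp hzV
      have hb : (n : G) * x * (n : G)⁻¹ ∈ V := (Subgroup.mem_normalizer_iff.mp (hNV n.2) x).mp hxV
      have ha1 : (n : G) * z * (n : G)⁻¹ ≠ 1 := by
        intro h
        apply hz1
        calc z = (n : G)⁻¹ * ((n : G) * z * (n : G)⁻¹) * (n : G) := by group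
          _ = 1 := by rw [h, mul_one, inv_mul_cancel]
      have hb1 : (n : G) * x * (n : G)⁻¹ ≠ 1 := by
        intro h
        apply hx1
        calc x = (n : G)⁻¹ * ((n : G) * x * (n : G)⁻¹) * (n : G) := by group
          _ = 1 := by rw [h, mul_one, inv_mul_cancel]
      have hab : (n : G) * z * (n : G)⁻¹ ≠ (n : G) * x * (n : G)⁻¹ := by
        intro h
        exact hxz (mul_left_cancel (mul_right_cancel h)).symm
      rcases hVel _ ha with e | e | e | e <;> rcases hVel _ hb with e' | e' | e' | e'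
      all_goals first
        | exact absurd e ha1
        | exact absurd e' hb1
        | exact absurd (e.trans e'.symm) hab
        | (show (⟨(n : G) * z * (n : G)⁻¹, (n : G) * x * (n : G)⁻¹⟩ : Pr G) ∈ _
           rw [e, e']; simp)
    · intro p hp
      simp only [Set.mem_insert_iff, Set.mem_singleton_iff] at hp
      rcases hp with rfl | rfl | rfl | rfl | rfl | rfl
      exacts [h0, h1, h2, h3, h4, h5]
  have hfin : ({⟨z, x⟩, ⟨z, z * x⟩, ⟨z * x, z⟩, ⟨x, z⟩, ⟨x, z * x⟩, ⟨z * x, x⟩} : Set (Pr G)) =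
      ((({⟨z, x⟩, ⟨z, z * x⟩, ⟨z * x, z⟩, ⟨x, z⟩, ⟨x, z * x⟩, ⟨z * x, x⟩} : Finset (Pr G)) :
        Set (Pr G))) := by
    simp
  rw [Subgroup.relIndex, ← hstab, MulAction.index_stabilizer, horb, hfin, Set.ncard_coe_finset,
    Finset.card_insert_of_notMem, Finset.card_insert_of_notMem, Finset.card_insert_of_notMem,
    Finset.card_insert_of_notMem, Finset.card_pair]
  all_goals simp [hxz, hzx', hzxz, hzxx, hzxz.symm, hzxx.symm]

set_option maxRecDepth 100000 in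
theorem perm3_key : ∀ σ : Equiv.Perm (Fin 3), σ ≠ 1 →
    ∃ τ : Equiv.Perm (Fin 3), σ * (τ * σ * τ⁻¹) ≠ 1 ∧ (σ * (τ * σ * τ⁻¹)) ^ 3 = 1 := by
  decide

/-- A group isomorphic to `S_3` has no non-trivial normal 2-subgroup. -/
theorem no_normal_two {H : Type*} [Group H] (ε : H ≃* Equiv.Perm (Fin 3)) (M : Subgroup H)
    [hM : M.Normal] (h2 : IsPGroup 2 M) : M = ⊥ := by
  rw [Subgroup.eq_bot_iff_forall]
  intro σ hσ
  by_contra hσ1
  have h1 : ε σ ≠ 1 := by
    intro h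
    apply hσ1
    apply ε.injective
    rw [h, map_one]
  obtain ⟨τ₀, hne, hcube⟩ := perm3_key (ε σ) h1
  obtain ⟨τ, rfl⟩ := ε.surjective τ₀
  have hyM : σ * (τ * σ * τ⁻¹) ∈ M := M.mul_mem hσ (hM.conj_mem σ hσ τ)
  have hε : ε (σ * (τ * σ * τ⁻¹)) = ε σ * (ε τ * ε σ * (ε τ)⁻¹) := by
    rw [map_mul, map_mul, map_mul, map_inv]
  have hy1 : σ * (τ * σ * τ⁻¹) ≠ 1 := by
    intro h
    apply hne
    rw [← hε, h, map_one]
  have hy3 : (σ * (τ * σ * τ⁻¹)) ^ 3 = 1 := by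
    apply ε.injective
    rw [map_pow, hε, hcube, map_one]
  obtain ⟨k, hk⟩ := h2 ⟨_, hyM⟩
  have hk' : (σ * (τ * σ * τ⁻¹)) ^ 2 ^ k = 1 := congrArg (fun t : ↥M => (t : H)) hk
  have hd1 : orderOf (σ * (τ * σ * τ⁻¹)) ∣ 3 := orderOf_dvd_of_pow_eq_one hy3
  have hd2 : orderOf (σ * (τ * σ * τ⁻¹)) ∣ 2 ^ k := orderOf_dvd_of_pow_eq_one hk'
  have hcop : Nat.Coprime 3 (2 ^ k) := Nat.Coprime.pow_right k (by norm_num)
  have hd3 : orderOf (σ * (τ * σ * τ⁻¹)) ∣ 1 := by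
    have h := Nat.dvd_gcd hd1 hd2
    rwa [hcop] at h
  exact hy1 (orderOf_eq_one_iff.mp (Nat.dvd_one.mp hd3))

/-- The three involutions of a four-group `{1, z, x, zx}`. -/
abbrev T3 (z x : G) : Type _ := {v : G // v = z ∨ v = x ∨ v = z * x}

/-- Conjugation action of a subgroup normalizing the four-group on its three involutions. -/
@[reducible] def act3 (X : Subgroup G) (z x : G)
    (h : ∀ a ∈ X, ∀ v : G, (v = z ∨ v = x ∨ v = z * x) →
      (a * v * a⁻¹ = z ∨ a * v * a⁻¹ = x ∨ a * v * a⁻¹ = z * x)) :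
    MulAction ↥X (T3 z x) where
  smul a v := ⟨(a : G) * v.1 * (a : G)⁻¹, h a a.2 v.1 v.2⟩
  one_smul v := Subtype.ext (by
    show (1 : G) * v.1 * (1 : G)⁻¹ = v.1
    group)
  mul_smul a b v := Subtype.ext (by
    show ((a : G) * (b : G)) * v.1 * ((a : G) * (b : G))⁻¹ =
      (a : G) * ((b : G) * v.1 * (b : G)⁻¹) * (a : G)⁻¹
    group)

/-- Structure of `X = ⟨Q, Q'⟩` for a pair of orthogonal singular involutions. -/
theorem pair_X [Finite G] {Q Q' : Subgroup G} {z x : G} (hQ : LX Q z) (hQ' : LX Q' x)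
    (hxQ : x ∈ Q) (hzQ' : z ∈ Q') (hxz : x ≠ z)
    (g : G) (hg : SemiconjBy g z x) (hQ'eq : ∀ a : G, a ∈ Q' ↔ g⁻¹ * a * g ∈ Q)
    (V X R : Subgroup G) (hV : V = Subgroup.closure ({z, x} : Set G)) (hX : X = Q ⊔ Q')
    (hR : R = (Q' ⊓ Subgroup.centralizer ({z} : Set G)) ⊔
      (Q ⊓ Subgroup.centralizer ({x} : Set G))) :
    R = X ⊓ Subgroup.centralizer (V : Set G) ∧
    R = (pCore 2 ↥X).map X.subtype ∧
    (∃ _ : (R.subgroupOf X).Normal, Nonempty (↥X ⧸ R.subgroupOf X ≃* Equiv.Perm (Fin 3))) ∧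
    Subgroup.normalizer (V : Set G) =
      X ⊔ (Subgroup.centralizer ({z} : Set G) ⊓ Subgroup.centralizer (V : Set G)) ∧
    (∀ y ∈ Subgroup.normalizer (V : Set G), ∀ a ∈ X, y * a * y⁻¹ ∈ X) ∧
    R ≤ Subgroup.centralizer ({z} : Set G) ⊓ Subgroup.centralizer (V : Set G) ∧
    (∀ a ∈ X, ∀ c ∈ Subgroup.centralizer ({z} : Set G) ⊓ Subgroup.centralizer (V : Set G),
      a * c * a⁻¹ * c⁻¹ ∈ R) ∧
    X ⊓ (Subgroup.centralizer ({z} : Set G) ⊓ Subgroup.centralizer (V : Set G)) = R := by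
  classical
  obtain ⟨d, hQ2, hCQ, hN⟩ := hQ
  obtain ⟨d', hQ2', hCQ', hN'⟩ := hQ'
  have dd := d
  obtain ⟨hzQ, hz1, hzz, hcen, hcomm, hsqr, hrad⟩ := dd
  have dd' := d'
  obtain ⟨hxQ', hx1, hxx, hcen', hcomm', hsqr', hrad'⟩ := dd'
  have hc : x * z = z * x := hcen x hxQ
  obtain ⟨W, hWdef⟩ : ∃ W : Subgroup G, W = four z x hzz hxx hc := ⟨_, rfl⟩
  have hW : ∀ v : G, v ∈ W ↔ v = 1 ∨ v = z ∨ v = x ∨ v = z * x := by
    intro v; rw [hWdef]; exact mem_four
  have hzW : z ∈ W := (hW z).mpr (Or.inr (Or.inl rfl))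
  have hxW : x ∈ W := (hW x).mpr (Or.inr (Or.inr (Or.inl rfl)))
  have hWV : W ≤ Subgroup.closure ({z, x} : Set G) := by
    intro v hv
    have hz' : z ∈ Subgroup.closure ({z, x} : Set G) :=
      Subgroup.subset_closure (Set.mem_insert _ _)
    have hx' : x ∈ Subgroup.closure ({z, x} : Set G) :=
      Subgroup.subset_closure (Set.mem_insert_of_mem _ (Set.mem_singleton _))
    rcases (hW v).mp hv with h | h | h | h
    · rw [h]; exact Subgroup.one_mem _
    · rw [h]; exact hz'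
    · rw [h]; exact hx'
    · rw [h]; exact Subgroup.mul_mem _ hz' hx'
  have hVle : ∀ A : Subgroup G, z ∈ A → x ∈ A → Subgroup.closure ({z, x} : Set G) ≤ A := by
    intro A hzA hxA
    rw [Subgroup.closure_le]
    intro v hv
    rcases hv with hv | hv
    · rw [hv]; exact hzA
    · rw [Set.mem_singleton_iff] at hv; rw [hv]; exact hxA
  have hVW : Subgroup.closure ({z, x} : Set G) ≤ W := hVle W hzW hxW
  have hWc : ∀ v ∈ W, ∀ c : G, c * z = z * c → c * x = x * c → c * v = v * c := by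
    intro v hv c hcz hcx
    rcases (hW v).mp hv with h | h | h | h
    · rw [h, mul_one, one_mul]
    · rw [h]; exact hcz
    · rw [h]; exact hcx
    · rw [h]
      calc c * (z * x) = (c * z) * x := (mul_assoc _ _ _).symm
        _ = (z * c) * x := by rw [hcz]
        _ = z * (c * x) := mul_assoc _ _ _
        _ = z * (x * c) := by rw [hcx]
        _ = z * x * c := (mul_assoc _ _ _).symm
  have hWQ : ∀ v ∈ W, v ∈ Q ⊓ Q' := by
    intro v hv
    rcases (hW v).mp hv with h | h | h | h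
    · rw [h]; exact Subgroup.one_mem _
    · rw [h]; exact Subgroup.mem_inf.mpr ⟨hzQ, hzQ'⟩
    · rw [h]; exact Subgroup.mem_inf.mpr ⟨hxQ, hxQ'⟩
    · rw [h]; exact Subgroup.mem_inf.mpr ⟨Q.mul_mem hzQ hxQ, Q'.mul_mem hzQ' hxQ'⟩
  have hzxz : z * x ≠ z := fun h => hx1 (mul_left_cancel (h.trans (mul_one z).symm))
  have hzxx : z * x ≠ x := fun h => hz1 (mul_right_cancel (h.trans (one_mul x).symm))
  have hzx1 : z * x ≠ 1 := by
    intro h
    apply hxz
    calc x = (z * z) * x := by rw [hzz, one_mul]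
      _ = z * (z * x) := mul_assoc _ _ _
      _ = z := by rw [h, mul_one]
  have hCV : ∀ c : G, c ∈ Subgroup.centralizer
      ((Subgroup.closure ({z, x} : Set G) : Subgroup G) : Set G) ↔
      (c * z = z * c ∧ c * x = x * c) := by
    intro c
    rw [Subgroup.mem_centralizer_iff]
    constructor
    · intro h
      exact ⟨(h z (hWV hzW)).symm, (h x (hWV hxW)).symm⟩
    · rintro ⟨h1, h2⟩ v hv
      exact (hWc v (hVW hv) c h1 h2).symm
  obtain ⟨Rx, hRx⟩ : ∃ Rx : Subgroup G, Rx = Q' ⊓ Subgroup.centralizer ({z} : Set G) :=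
    ⟨_, rfl⟩
  obtain ⟨Rz, hRz⟩ : ∃ Rz : Subgroup G, Rz = Q ⊓ Subgroup.centralizer ({x} : Set G) :=
    ⟨_, rfl⟩
  rw [← hRx, ← hRz] at hR
  have hmRx : ∀ a : G, a ∈ Rx ↔ a ∈ Q' ∧ a * z = z * a := by
    intro a; rw [hRx, Subgroup.mem_inf, mem_cz]
  have hmRz : ∀ a : G, a ∈ Rz ↔ a ∈ Q ∧ a * x = x * a := by
    intro a; rw [hRz, Subgroup.mem_inf, mem_cz]
  subst hV
  subst hX
  subst hR
  have hRzC : ∀ a ∈ Rz, a * z = z * a ∧ a * x = x * a :=
    fun a ha => ⟨hcen a ((hmRz a).mp ha).1, ((hmRz a).mp ha).2⟩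
  have hRxC : ∀ a ∈ Rx, a * z = z * a ∧ a * x = x * a :=
    fun a ha => ⟨((hmRx a).mp ha).2, hcen' a ((hmRx a).mp ha).1⟩
  have hRC : ∀ a ∈ Rx ⊔ Rz, a * z = z * a ∧ a * x = x * a := by
    intro a ha
    have hle : Rx ⊔ Rz ≤ cen z ⊓ cen x :=
      sup_le (fun b hb => Subgroup.mem_inf.mpr
          ⟨mem_cen.mpr (hRxC b hb).1, mem_cen.mpr (hRxC b hb).2⟩)
        (fun b hb => Subgroup.mem_inf.mpr
          ⟨mem_cen.mpr (hRzC b hb).1, mem_cen.mpr (hRzC b hb).2⟩)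
    have h1 := Subgroup.mem_inf.mp (hle ha)
    exact ⟨mem_cen.mp h1.1, mem_cen.mp h1.2⟩
  have hRzR : Rz ≤ Rx ⊔ Rz := le_sup_right
  have hRxR : Rx ≤ Rx ⊔ Rz := le_sup_left
  have hQX : Q ≤ Q ⊔ Q' := le_sup_left
  have hQ'X : Q' ≤ Q ⊔ Q' := le_sup_right
  have hRX : Rx ⊔ Rz ≤ Q ⊔ Q' :=
    sup_le (fun a ha => hQ'X ((hmRx a).mp ha).1) (fun a ha => hQX ((hmRz a).mp ha).1)
  have hWR : W ≤ Rx ⊔ Rz := by
    intro v hv
    exact hRzR ((hmRz v).mpr ⟨(Subgroup.mem_inf.mp (hWQ v hv)).1, (hWc v hv x hc rfl).symm⟩)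
  -- the two transpositions
  obtain ⟨q, hqQ, hq⟩ := exists_moving d hxQ hx1 hxz
  obtain ⟨q', hqQ', hq'0⟩ := exists_moving d' hzQ' hz1 (fun h => hxz h.symm)
  have hq' : SemiconjBy q' z (z * x) := by rw [← hc]; exact hq'0
  have hqz : SemiconjBy q z z := hcen q hqQ
  have hq'x : SemiconjBy q' x x := hcen' q' hqQ'
  have hqzx : SemiconjBy q (z * x) x := by
    have h2 : SemiconjBy q (z * x) (z * (z * x)) := hqz.mul_right hq
    have e : z * (z * x) = x := by rw [← mul_assoc, hzz, one_mul]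
    rw [e] at h2
    exact h2
  have hq'zx : SemiconjBy q' (z * x) z := by
    have h2 : SemiconjBy q' (z * x) ((z * x) * x) := hq'.mul_right hq'x
    have e : (z * x) * x = z := by rw [mul_assoc, hxx, mul_one]
    rw [e] at h2
    exact h2
  have hqq'_z : SemiconjBy (q * q') z x := SemiconjBy.mul_left hqzx hq'
  have hqq'_x : SemiconjBy (q * q') x (z * x) := SemiconjBy.mul_left hq hq'x
  have hqq'_zx : SemiconjBy (q * q') (z * x) z := SemiconjBy.mul_left hqz hq'zx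
  have hq'q_z : SemiconjBy (q' * q) z (z * x) := SemiconjBy.mul_left hq' hqz
  have hq'q_x : SemiconjBy (q' * q) x z := SemiconjBy.mul_left hq'zx hq
  have hqq'q_z : SemiconjBy (q * q' * q) z x := SemiconjBy.mul_left hqq'_z hqz
  have hqq'q_x : SemiconjBy (q * q' * q) x z := SemiconjBy.mul_left hqq'_zx hq
  have hqX : q ∈ Q ⊔ Q' := hQX hqQ
  have hq'X : q' ∈ Q ⊔ Q' := hQ'X hqQ'
  have hqq'X : q * q' ∈ Q ⊔ Q' := Subgroup.mul_mem _ hqX hq'X
  have hq'qX : q' * q ∈ Q ⊔ Q' := Subgroup.mul_mem _ hq'X hqX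
  have hqq'qX : q * q' * q ∈ Q ⊔ Q' := Subgroup.mul_mem _ hqq'X hqX
  -- X normalizes W
  have hXW : ∀ a ∈ Q ⊔ Q', ∀ v ∈ W, a * v * a⁻¹ ∈ W := by
    intro a ha
    refine sup_induction (C := fun a => ∀ v ∈ W, a * v * a⁻¹ ∈ W) ha ?_ ?_ ?_ ?_
    · intro a ha v hv
      rcases sb_of_comm d ha (Subgroup.mem_inf.mp (hWQ v hv)).1 with h | h
      · have e1 : a * v * a⁻¹ = v := by rw [h.eq, mul_inv_cancel_right]
        rw [e1]; exact hv
      · have e1 : a * v * a⁻¹ = z * v := by rw [h.eq, mul_inv_cancel_right]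
        rw [e1]; exact W.mul_mem hzW hv
    · intro a ha v hv
      rcases sb_of_comm d' ha (Subgroup.mem_inf.mp (hWQ v hv)).2 with h | h
      · have e1 : a * v * a⁻¹ = v := by rw [h.eq, mul_inv_cancel_right]
        rw [e1]; exact hv
      · have e1 : a * v * a⁻¹ = x * v := by rw [h.eq, mul_inv_cancel_right]
        rw [e1]; exact W.mul_mem hxW hv
    · intro v hv
      rw [one_mul, inv_one, mul_one]; exact hv
    · intro a₁ a₂ h1 h2 v hv
      have e1 : a₁ * a₂ * v * (a₁ * a₂)⁻¹ = a₁ * (a₂ * v * a₂⁻¹) * a₁⁻¹ := by group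
      rw [e1]; exact h1 _ (h2 v hv)
  have hXC : ∀ a ∈ Q ⊔ Q', ∀ c : G, c * z = z * c → c * x = x * c →
      (a * c * a⁻¹) * z = z * (a * c * a⁻¹) ∧ (a * c * a⁻¹) * x = x * (a * c * a⁻¹) := by
    intro a ha c hcz hcx
    have key : ∀ v ∈ W, (a * c * a⁻¹) * v = v * (a * c * a⁻¹) := by
      intro v hv
      have h1 : a⁻¹ * v * a ∈ W := by
        have h2 := hXW a⁻¹ (Subgroup.inv_mem _ ha) v hv
        rw [inv_inv] at h2; exact h2
      have h3 := hWc _ h1 c hcz hcx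
      calc a * c * a⁻¹ * v = a * (c * (a⁻¹ * v * a)) * a⁻¹ := by group
        _ = a * ((a⁻¹ * v * a) * c) * a⁻¹ := by rw [h3]
        _ = v * (a * c * a⁻¹) := by group
    exact ⟨key z hzW, key x hxW⟩
  have hgenC : ∀ a : G, (a ∈ Q ∨ a ∈ Q') → ∀ c : G, c * z = z * c → c * x = x * c →
      a * c * a⁻¹ * c⁻¹ ∈ Rx ⊔ Rz := by
    intro a ha c hcz hcx
    have hcz' : c⁻¹ * z = z * c⁻¹ := (Commute.inv_left (show Commute c z from hcz)).eq
    have hcx' : c⁻¹ * x = x * c⁻¹ := (Commute.inv_left (show Commute c x from hcx)).eq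
    rcases ha with ha | ha
    · apply hRzR
      rw [hmRz]
      refine ⟨?_, ?_⟩
      · have h2 : c * a⁻¹ * c⁻¹ ∈ Q := hN c hcz a⁻¹ (Q.inv_mem ha)
        have e : a * c * a⁻¹ * c⁻¹ = a * (c * a⁻¹ * c⁻¹) := by group
        rw [e]; exact Q.mul_mem ha h2
      · have h3 := (hXC a (hQX ha) c hcz hcx).2
        exact (Commute.mul_left (show Commute (a * c * a⁻¹) x from h3)
          (show Commute c⁻¹ x from hcx')).eq
    · apply hRxR
      rw [hmRx]
      refine ⟨?_, ?_⟩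
      · have h2 : c * a⁻¹ * c⁻¹ ∈ Q' := hN' c hcx a⁻¹ (Q'.inv_mem ha)
        have e : a * c * a⁻¹ * c⁻¹ = a * (c * a⁻¹ * c⁻¹) := by group
        rw [e]; exact Q'.mul_mem ha h2
      · have h3 := (hXC a (hQ'X ha) c hcz hcx).1
        exact (Commute.mul_left (show Commute (a * c * a⁻¹) z from h3)
          (show Commute c⁻¹ z from hcz')).eq
  have hRn : ∀ a ∈ Q ⊔ Q', ∀ r ∈ Rx ⊔ Rz, a * r * a⁻¹ ∈ Rx ⊔ Rz := by
    intro a ha
    refine sup_induction (C := fun a => ∀ r ∈ Rx ⊔ Rz, a * r * a⁻¹ ∈ Rx ⊔ Rz) ha ?_ ?_ ?_ ?_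
    · intro a ha r hr
      have h1 := hgenC a (Or.inl ha) r (hRC r hr).1 (hRC r hr).2
      have e : a * r * a⁻¹ = (a * r * a⁻¹ * r⁻¹) * r := by group
      rw [e]; exact Subgroup.mul_mem _ h1 hr
    · intro a ha r hr
      have h1 := hgenC a (Or.inr ha) r (hRC r hr).1 (hRC r hr).2
      have e : a * r * a⁻¹ = (a * r * a⁻¹ * r⁻¹) * r := by group
      rw [e]; exact Subgroup.mul_mem _ h1 hr
    · intro r hr
      rw [one_mul, inv_one, mul_one]; exact hr
    · intro a₁ a₂ h1 h2 r hr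
      have e1 : a₁ * a₂ * r * (a₁ * a₂)⁻¹ = a₁ * (a₂ * r * a₂⁻¹) * a₁⁻¹ := by group
      rw [e1]; exact h1 _ (h2 r hr)
  have hRn' : ∀ a ∈ Q ⊔ Q', ∀ r ∈ Rx ⊔ Rz, a⁻¹ * r * a ∈ Rx ⊔ Rz := by
    intro a ha r hr
    have h := hRn a⁻¹ (Subgroup.inv_mem _ ha) r hr
    rw [inv_inv] at h; exact h
  have h7 : ∀ a ∈ Q ⊔ Q', ∀ c : G, c * z = z * c → c * x = x * c →
      a * c * a⁻¹ * c⁻¹ ∈ Rx ⊔ Rz := by
    intro a ha c hcz hcx
    refine (sup_induction (C := fun a => a ∈ Q ⊔ Q' ∧ a * c * a⁻¹ * c⁻¹ ∈ Rx ⊔ Rz)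
      ha ?_ ?_ ?_ ?_).2
    · intro a ha; exact ⟨hQX ha, hgenC a (Or.inl ha) c hcz hcx⟩
    · intro a ha; exact ⟨hQ'X ha, hgenC a (Or.inr ha) c hcz hcx⟩
    · refine ⟨Subgroup.one_mem _, ?_⟩
      have e : (1 : G) * c * 1⁻¹ * c⁻¹ = 1 := by group
      rw [e]; exact Subgroup.one_mem _
    · rintro a₁ a₂ ⟨h1X, h1⟩ ⟨h2X, h2⟩
      refine ⟨Subgroup.mul_mem _ h1X h2X, ?_⟩
      have e : a₁ * a₂ * c * (a₁ * a₂)⁻¹ * c⁻¹ =
          a₁ * (a₂ * c * a₂⁻¹ * c⁻¹) * a₁⁻¹ * (a₁ * c * a₁⁻¹ * c⁻¹) := by group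
      rw [e]; exact Subgroup.mul_mem _ (hRn a₁ h1X _ h2) h1
  have hqq : q * q ∈ Rx ⊔ Rz := by
    rcases hsqr q hqQ with h | h
    · rw [h]; exact Subgroup.one_mem _
    · rw [h]; exact hWR hzW
  have hq'q' : q' * q' ∈ Rx ⊔ Rz := by
    rcases hsqr' q' hqQ' with h | h
    · rw [h]; exact Subgroup.one_mem _
    · rw [h]; exact hWR hxW
  -- the braid relation modulo R
  obtain ⟨ρ, hρR, hbraid⟩ : ∃ ρ ∈ Rx ⊔ Rz, q' * q * q' = q * q' * q * ρ := by
    have hk : SemiconjBy (g⁻¹ * q⁻¹ * q') z z := by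
      have h1 : SemiconjBy q⁻¹ x (z * x) := hqzx.inv_symm_left
      have h2 : SemiconjBy q⁻¹ z z := hqz.inv_symm_left
      have h3 : SemiconjBy q⁻¹ (z * x) (z * (z * x)) := h2.mul_right h1
      have e : z * (z * x) = x := by rw [← mul_assoc, hzz, one_mul]
      rw [e] at h3
      exact SemiconjBy.mul_left (SemiconjBy.mul_left hg.inv_symm_left h3) hq'
    have hy : q⁻¹ * q' * q * q'⁻¹ * q ∈ Q' := by
      rw [hQ'eq]
      have h1 := hN _ hk.eq q hqQ
      have e : g⁻¹ * q⁻¹ * q' * q * (g⁻¹ * q⁻¹ * q')⁻¹ =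
          g⁻¹ * (q⁻¹ * q' * q * q'⁻¹ * q) * g := by group
      rw [e] at h1; exact h1
    have hyz : SemiconjBy (q⁻¹ * q' * q * q'⁻¹ * q) z (z * x) := by
      have h1 : SemiconjBy q'⁻¹ z (z * x) := hq'zx.inv_symm_left
      have h2 : SemiconjBy q⁻¹ x (z * x) := hqzx.inv_symm_left
      exact SemiconjBy.mul_left (SemiconjBy.mul_left (SemiconjBy.mul_left
        (SemiconjBy.mul_left h2 hq'x) hqzx) h1) hqz
    rcases cover d' hzQ' hqQ' hq'0 hy with h | ⟨r₁, hr₁Q', hr₁z, hr₁⟩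
    · exfalso
      exact hzxz (mul_right_cancel (hyz.eq.symm.trans h.eq))
    · have hr₁R : r₁ ∈ Rx ⊔ Rz := hRxR ((hmRx r₁).mpr ⟨hr₁Q', hr₁z.eq⟩)
      refine ⟨(q⁻¹ * r₁ * q) * (q * q)⁻¹ * (q' * q'), ?_, ?_⟩
      · exact Subgroup.mul_mem _ (Subgroup.mul_mem _ (hRn' q hqX r₁ hr₁R)
          (Subgroup.inv_mem _ hqq)) hq'q'
      · have e : r₁ = q'⁻¹ * (q⁻¹ * q' * q * q'⁻¹ * q) := by rw [hr₁]; group
        rw [e]; group
  -- the six cosets
  have hcosR : ∀ w ∈ Q ⊔ Q', ∀ a ∈ Rx ⊔ Rz, ∀ t : G, (∃ r ∈ Rx ⊔ Rz, t = w * r) →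
      ∃ r ∈ Rx ⊔ Rz, a * t = w * r := by
    rintro w hw a ha t ⟨r, hr, rfl⟩
    exact ⟨(w⁻¹ * a * w) * r, Subgroup.mul_mem _ (hRn' w hw a ha) hr, by group⟩
  have hcosS : ∀ (u w w' ρ' : G), u * w = w' * ρ' → ρ' ∈ Rx ⊔ Rz → ∀ t : G,
      (∃ r ∈ Rx ⊔ Rz, t = w * r) → ∃ r ∈ Rx ⊔ Rz, u * t = w' * r := by
    rintro u w w' ρ' h hρ' t ⟨r, hr, rfl⟩
    refine ⟨ρ' * r, Subgroup.mul_mem _ hρ' hr, ?_⟩
    calc u * (w * r) = (u * w) * r := (mul_assoc _ _ _).symm
      _ = (w' * ρ') * r := by rw [h]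
      _ = w' * (ρ' * r) := mul_assoc _ _ _
  obtain ⟨T, hT⟩ : ∃ T : G → Prop, ∀ t, T t ↔
      ((∃ r ∈ Rx ⊔ Rz, t = 1 * r) ∨ (∃ r ∈ Rx ⊔ Rz, t = q * r) ∨
        (∃ r ∈ Rx ⊔ Rz, t = q' * r) ∨ (∃ r ∈ Rx ⊔ Rz, t = (q * q') * r) ∨
        (∃ r ∈ Rx ⊔ Rz, t = (q' * q) * r) ∨ (∃ r ∈ Rx ⊔ Rz, t = (q * q' * q) * r)) :=
    ⟨_, fun t => Iff.rfl⟩
  have hTR : ∀ a ∈ Rx ⊔ Rz, ∀ t, T t → T (a * t) := by
    intro a ha t ht
    rw [hT] at ht ⊢
    rcases ht with h | h | h | h | h | h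
    · exact Or.inl (hcosR 1 (Subgroup.one_mem _) a ha t h)
    · exact Or.inr (Or.inl (hcosR q hqX a ha t h))
    · exact Or.inr (Or.inr (Or.inl (hcosR q' hq'X a ha t h)))
    · exact Or.inr (Or.inr (Or.inr (Or.inl (hcosR (q * q') hqq'X a ha t h))))
    · exact Or.inr (Or.inr (Or.inr (Or.inr (Or.inl (hcosR (q' * q) hq'qX a ha t h)))))
    · exact Or.inr (Or.inr (Or.inr (Or.inr (Or.inr (hcosR (q * q' * q) hqq'qX a ha t h)))))
  have hTq : ∀ t, T t → T (q * t) := by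
    intro t ht
    rw [hT] at ht ⊢
    rcases ht with h | h | h | h | h | h
    · exact Or.inr (Or.inl (hcosS q 1 q 1 (by group) (Subgroup.one_mem _) t h))
    · exact Or.inl (hcosS q q 1 (q * q) (by group) hqq t h)
    · exact Or.inr (Or.inr (Or.inr (Or.inl
        (hcosS q q' (q * q') 1 (by group) (Subgroup.one_mem _) t h))))
    · exact Or.inr (Or.inr (Or.inl (hcosS q (q * q') q' (q'⁻¹ * (q * q) * q') (by group)
        (hRn' q' hq'X _ hqq) t h)))
    · exact Or.inr (Or.inr (Or.inr (Or.inr (Or.inr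
        (hcosS q (q' * q) (q * q' * q) 1 (by group) (Subgroup.one_mem _) t h)))))
    · exact Or.inr (Or.inr (Or.inr (Or.inr (Or.inl
        (hcosS q (q * q' * q) (q' * q) ((q' * q)⁻¹ * (q * q) * (q' * q)) (by group)
          (hRn' (q' * q) hq'qX _ hqq) t h)))))
  have hb2 : q' * (q * q') = q * q' * q * ρ := by rw [← hbraid]; group
  have hb3 : q' * (q * q' * q) = q * q' * ((q * q) * (q⁻¹ * ρ * q)) := by
    calc q' * (q * q' * q) = (q' * q * q') * q := by group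
      _ = (q * q' * q * ρ) * q := by rw [hbraid]
      _ = q * q' * ((q * q) * (q⁻¹ * ρ * q)) := by group
  have hTq' : ∀ t, T t → T (q' * t) := by
    intro t ht
    rw [hT] at ht ⊢
    rcases ht with h | h | h | h | h | h
    · exact Or.inr (Or.inr (Or.inl (hcosS q' 1 q' 1 (by group) (Subgroup.one_mem _) t h)))
    · exact Or.inr (Or.inr (Or.inr (Or.inr (Or.inl
        (hcosS q' q (q' * q) 1 (by group) (Subgroup.one_mem _) t h)))))
    · exact Or.inl (hcosS q' q' 1 (q' * q') (by group) hq'q' t h)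
    · exact Or.inr (Or.inr (Or.inr (Or.inr (Or.inr
        (hcosS q' (q * q') (q * q' * q) ρ hb2 hρR t h)))))
    · exact Or.inr (Or.inl (hcosS q' (q' * q) q (q⁻¹ * (q' * q') * q) (by group)
        (hRn' q hqX _ hq'q') t h))
    · exact Or.inr (Or.inr (Or.inr (Or.inl
        (hcosS q' (q * q' * q) (q * q') ((q * q) * (q⁻¹ * ρ * q)) hb3
          (Subgroup.mul_mem _ hqq (hRn' q hqX ρ hρR)) t h))))
  have hTX : ∀ a ∈ Q ⊔ Q', T a := by
    intro a ha
    have h1 : ∀ t, T t → T (a * t) := by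
      refine sup_induction (C := fun a => ∀ t, T t → T (a * t)) ha ?_ ?_ ?_ ?_
      · intro a ha t ht
        rcases cover d hxQ hqQ hq ha with h | ⟨r, hr, hrx, rfl⟩
        · exact hTR a (hRzR ((hmRz a).mpr ⟨ha, h.eq⟩)) t ht
        · rw [mul_assoc]
          exact hTq _ (hTR r (hRzR ((hmRz r).mpr ⟨hr, hrx.eq⟩)) t ht)
      · intro a ha t ht
        rcases cover d' hzQ' hqQ' hq'0 ha with h | ⟨r, hr, hrz, rfl⟩
        · exact hTR a (hRxR ((hmRx a).mpr ⟨ha, h.eq⟩)) t ht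
        · rw [mul_assoc]
          exact hTq' _ (hTR r (hRxR ((hmRx r).mpr ⟨hr, hrz.eq⟩)) t ht)
      · intro t ht
        rw [one_mul]; exact ht
      · intro a₁ a₂ h1 h2 t ht
        rw [mul_assoc]; exact h1 _ (h2 t ht)
    have h2 := h1 1 ((hT 1).mpr (Or.inl ⟨1, Subgroup.one_mem _, (one_mul 1).symm⟩))
    rw [mul_one] at h2; exact h2
  -- X ∩ C(V) ≤ R
  have hXC_R : ∀ a ∈ Q ⊔ Q', a * z = z * a → a * x = x * a → a ∈ Rx ⊔ Rz := by
    intro a ha haz hax
    have hTa := (hT a).mp (hTX a ha)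
    have hbad : ∀ w z' : G, SemiconjBy w z z' → z' ≠ z →
        (∃ r ∈ Rx ⊔ Rz, a = w * r) → False := by
      intro w z' hw hz' hex
      obtain ⟨r, hr, hrw⟩ := hex
      have hrz : SemiconjBy r z z := (hRC r hr).1
      have h1 : SemiconjBy (w * r) z z' := SemiconjBy.mul_left hw hrz
      rw [← hrw] at h1
      exact hz' (mul_right_cancel (h1.eq.symm.trans haz))
    have hbadx : ∀ w x' : G, SemiconjBy w x x' → x' ≠ x →
        (∃ r ∈ Rx ⊔ Rz, a = w * r) → False := by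
      intro w x' hw hx' hex
      obtain ⟨r, hr, hrw⟩ := hex
      have hrx : SemiconjBy r x x := (hRC r hr).2
      have h1 : SemiconjBy (w * r) x x' := SemiconjBy.mul_left hw hrx
      rw [← hrw] at h1
      exact hx' (mul_right_cancel (h1.eq.symm.trans hax))
    rcases hTa with h | h | h | h | h | h
    · obtain ⟨r, hr, hrw⟩ := h
      rw [hrw, one_mul]; exact hr
    · exact (hbadx q (z * x) hq hzxx h).elim
    · exact (hbad q' (z * x) hq' hzxz h).elim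
    · exact (hbad (q * q') x hqq'_z hxz h).elim
    · exact (hbad (q' * q) (z * x) hq'q_z hzxz h).elim
    · exact (hbad (q * q' * q) x hqq'q_z hxz h).elim
  -- X ≤ N(V), C(V) ≤ N(V)
  have hXN : Q ⊔ Q' ≤ Subgroup.normalizer
      ((Subgroup.closure ({z, x} : Set G) : Subgroup G) : Set G) := by
    intro a ha
    apply mem_normalizer_of_conj
    intro v hv
    exact hWV (hXW a ha v (hVW hv))
  -- decomposition of N(V)
  have hNdec : ∀ n ∈ Subgroup.normalizer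
      ((Subgroup.closure ({z, x} : Set G) : Subgroup G) : Set G),
      ∃ w ∈ Q ⊔ Q', ∃ c : G, (c * z = z * c ∧ c * x = x * c) ∧ n = w * c := by
    intro n hn
    have ha : n * z * n⁻¹ ∈ W := hVW ((Subgroup.mem_normalizer_iff.mp hn z).mp (hWV hzW))
    have hb : n * x * n⁻¹ ∈ W := hVW ((Subgroup.mem_normalizer_iff.mp hn x).mp (hWV hxW))
    have ha1 : n * z * n⁻¹ ≠ 1 := by
      intro h
      apply hz1
      calc z = n⁻¹ * (n * z * n⁻¹) * n := by group
        _ = 1 := by rw [h, mul_one, inv_mul_cancel]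
    have hb1 : n * x * n⁻¹ ≠ 1 := by
      intro h
      apply hx1
      calc x = n⁻¹ * (n * x * n⁻¹) * n := by group
        _ = 1 := by rw [h, mul_one, inv_mul_cancel]
    have hab : n * z * n⁻¹ ≠ n * x * n⁻¹ := by
      intro h
      exact hxz (mul_left_cancel (mul_right_cancel h)).symm
    have hdec : ∀ w ∈ Q ⊔ Q', ∀ a₁ a₂ : G, SemiconjBy w z a₁ → SemiconjBy w x a₂ →
        n * z * n⁻¹ = a₁ → n * x * n⁻¹ = a₂ →
        ∃ w ∈ Q ⊔ Q', ∃ c : G, (c * z = z * c ∧ c * x = x * c) ∧ n = w * c := by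
      intro w hw a₁ a₂ hwz hwx e1 e2
      have hnz : SemiconjBy n z a₁ := by rw [← e1]; exact SemiconjBy.conj_mk n z
      have hnx : SemiconjBy n x a₂ := by rw [← e2]; exact SemiconjBy.conj_mk n x
      refine ⟨w, hw, w⁻¹ * n, ⟨?_, ?_⟩, by group⟩
      · exact (SemiconjBy.mul_left hwz.inv_symm_left hnz).eq
      · exact (SemiconjBy.mul_left hwx.inv_symm_left hnx).eq
    rcases (hW _).mp ha with e | e | e | e <;> rcases (hW _).mp hb with e' | e' | e' | e'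
    all_goals first
      | exact absurd e ha1
      | exact absurd e' hb1
      | exact absurd (e.trans e'.symm) hab
      | exact hdec 1 (Subgroup.one_mem _) _ _ (SemiconjBy.one_left z) (SemiconjBy.one_left x) e e'
      | exact hdec q hqX _ _ hqz hq e e'
      | exact hdec q' hq'X _ _ hq' hq'x e e'
      | exact hdec (q * q') hqq'X _ _ hqq'_z hqq'_x e e'
      | exact hdec (q' * q) hq'qX _ _ hq'q_z hq'q_x e e'
      | exact hdec (q * q' * q) hqq'qX _ _ hqq'q_z hqq'q_x e e'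
  -- R is a 2-group
  have hR2 : IsPGroup 2 (Rx ⊔ Rz : Subgroup G) := by
    have h1 : IsPGroup 2 Rx := by rw [hRx]; exact hQ2'.to_le inf_le_left
    have h2 : IsPGroup 2 Rz := by rw [hRz]; exact hQ2.to_le inf_le_left
    apply IsPGroup.to_sup_of_normal_right' h1 h2
    intro a ha
    apply mem_normalizer_of_conj
    intro r hr
    rw [hmRz]
    refine ⟨hN a (hRxC a ha).1 r ((hmRz r).mp hr).1, ?_⟩
    have h3 : Commute (a * r) x :=
      Commute.mul_left (show Commute a x from (hRxC a ha).2)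
        (show Commute r x from ((hmRz r).mp hr).2)
    exact (Commute.mul_left h3 (Commute.inv_left (show Commute a x from (hRxC a ha).2))).eq
  -- the action on the three involutions
  have hact : ∀ a ∈ Q ⊔ Q', ∀ v : G, (v = z ∨ v = x ∨ v = z * x) →
      (a * v * a⁻¹ = z ∨ a * v * a⁻¹ = x ∨ a * v * a⁻¹ = z * x) := by
    intro a ha v hv
    have hvW : v ∈ W := (hW v).mpr (Or.inr hv)
    have hv1 : v ≠ 1 := by
      rcases hv with h | h | h
      · rw [h]; exact hz1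
      · rw [h]; exact hx1
      · rw [h]; exact hzx1
    rcases (hW _).mp (hXW a ha v hvW) with h | h
    · exfalso; apply hv1
      calc v = a⁻¹ * (a * v * a⁻¹) * a := by group
        _ = 1 := by rw [h, mul_one, inv_mul_cancel]
    · exact h
  letI : MulAction ↥(Q ⊔ Q') (T3 z x) := act3 (Q ⊔ Q') z x hact
  obtain ⟨φ, hφdef⟩ : ∃ φ : ↥(Q ⊔ Q') →* Equiv.Perm (T3 z x),
      φ = MulAction.toPermHom ↥(Q ⊔ Q') (T3 z x) := ⟨_, rfl⟩
  have hφ : ∀ (a : ↥(Q ⊔ Q')) (v : T3 z x),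
      ((φ a v : T3 z x) : G) = (a : G) * (v : G) * (a : G)⁻¹ := by
    intro a v; rw [hφdef]; rfl
  have hker : φ.ker = (Rx ⊔ Rz).subgroupOf (Q ⊔ Q') := by
    ext a
    rw [MonoidHom.mem_ker, Subgroup.mem_subgroupOf]
    constructor
    · intro h
      apply hXC_R a a.2
      · have h1 := hφ a ⟨z, Or.inl rfl⟩
        rw [h] at h1
        have h2 : z = (a : G) * z * (a : G)⁻¹ := h1
        calc (a : G) * z = ((a : G) * z * (a : G)⁻¹) * (a : G) := by group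
          _ = z * (a : G) := by rw [← h2]
      · have h1 := hφ a ⟨x, Or.inr (Or.inl rfl)⟩
        rw [h] at h1
        have h2 : x = (a : G) * x * (a : G)⁻¹ := h1
        calc (a : G) * x = ((a : G) * x * (a : G)⁻¹) * (a : G) := by group
          _ = x * (a : G) := by rw [← h2]
    · intro h
      apply Equiv.ext
      intro v
      apply Subtype.ext
      rw [hφ]
      have hv := hWc (v : G) ((hW _).mpr (Or.inr v.2)) (a : G) (hRC _ h).1 (hRC _ h).2
      show (a : G) * (v : G) * (a : G)⁻¹ = (v : G)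
      rw [hv, mul_inv_cancel_right]
  have hcard3 : Nat.card (T3 z x) = 3 := by
    show Nat.card ↥({z, x, z * x} : Set G) = 3
    rw [Nat.card_coe_set_eq, Set.ncard_eq_three]
    exact ⟨z, x, z * x, fun h => hxz h.symm, fun h => hzxz h.symm, fun h => hzxx h.symm, rfl⟩
  have hcardP : Nat.card (Equiv.Perm (T3 z x)) = 6 := by
    rw [Nat.card_perm, hcard3]; rfl
  have hidx : φ.ker.index = 6 := by
    rw [hker]
    have h6 := index6N hzz hxx hc hz1 hx1 hxz (Subgroup.closure ({z, x} : Set G))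
      (hWV hzW) (hWV hxW) hVle (Q ⊔ Q') hXN hqX hq'X hqz hq hq'x hq'
    rw [Subgroup.relIndex] at h6
    have e : (Subgroup.centralizer
        ((Subgroup.closure ({z, x} : Set G) : Subgroup G) : Set G)).subgroupOf (Q ⊔ Q') =
        (Rx ⊔ Rz).subgroupOf (Q ⊔ Q') := by
      ext a
      rw [Subgroup.mem_subgroupOf, Subgroup.mem_subgroupOf]
      constructor
      · intro h; exact hXC_R a a.2 ((hCV a).mp h).1 ((hCV a).mp h).2
      · intro h; exact (hCV a).mpr (hRC a h)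
    rw [← e]; exact h6
  have hsurj : Function.Surjective φ := by
    rw [← MonoidHom.range_eq_top]
    apply Subgroup.eq_top_of_card_eq
    rw [← Subgroup.index_ker, hidx, hcardP]
  have hnormal : ((Rx ⊔ Rz).subgroupOf (Q ⊔ Q')).Normal := by
    constructor
    intro r hr a
    rw [Subgroup.mem_subgroupOf] at hr ⊢
    exact hRn a a.2 r hr
  obtain ⟨e3⟩ : Nonempty (T3 z x ≃ Fin 3) := ⟨Finite.equivFinOfCardEq hcard3⟩
  refine ⟨?_, ?_, ?_, ?_, ?_, ?_, ?_, ?_⟩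
  · -- R = X ⊓ C(V)
    apply le_antisymm
    · intro r hr
      exact Subgroup.mem_inf.mpr ⟨hRX hr, (hCV r).mpr (hRC r hr)⟩
    · intro a ha
      have h1 := Subgroup.mem_inf.mp ha
      exact hXC_R a h1.1 ((hCV a).mp h1.2).1 ((hCV a).mp h1.2).2
  · -- R = O_2(X)
    apply le_antisymm
    · exact le_pc hRX hR2 (fun c hc a ha => hRn c hc a ha)
    · rintro _ ⟨p, hp, rfl⟩
      have hNn : (pCore 2 ↥(Q ⊔ Q')).Normal := Subgroup.sSup_normal _ (fun _ hH => hH.1)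
      have hN2 : IsPGroup 2 (pCore 2 ↥(Q ⊔ Q')) :=
        Sylow.sSup_of_normal _ (fun _ hH => hH.2) (fun _ hH => hH.1)
      haveI hMn : ((pCore 2 ↥(Q ⊔ Q')).map φ).Normal := Subgroup.Normal.map hNn φ hsurj
      have hM2 : IsPGroup 2 ((pCore 2 ↥(Q ⊔ Q')).map φ) := hN2.map φ
      have hbot := no_normal_two e3.permCongrHom ((pCore 2 ↥(Q ⊔ Q')).map φ) hM2
      have h1 : φ p ∈ (pCore 2 ↥(Q ⊔ Q')).map φ := Subgroup.mem_map_of_mem φ hp
      rw [hbot, Subgroup.mem_bot] at h1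
      have h2 : p ∈ φ.ker := MonoidHom.mem_ker.mpr h1
      rw [hker, Subgroup.mem_subgroupOf] at h2
      exact h2
  · -- X / R ≅ S_3
    refine ⟨hnormal, ?_⟩
    exact ⟨(QuotientGroup.quotientMulEquivOfEq hker.symm).trans
      ((QuotientGroup.quotientKerEquivOfSurjective φ hsurj).trans e3.permCongrHom)⟩
  · -- N(V) = X (C(z) ∩ C(V))
    apply le_antisymm
    · intro n hn
      obtain ⟨w, hw, c, ⟨hcz, hcx⟩, rfl⟩ := hNdec n hn
      exact Subgroup.mul_mem _ (Subgroup.mem_sup_left hw)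
        (Subgroup.mem_sup_right (Subgroup.mem_inf.mpr ⟨mem_cz.mpr hcz, (hCV c).mpr ⟨hcz, hcx⟩⟩))
    · apply sup_le hXN
      intro c hc
      have h1 := (hCV c).mp (Subgroup.mem_inf.mp hc).2
      apply mem_normalizer_of_conj
      intro v hv
      have h2 := hWc v (hVW hv) c h1.1 h1.2
      rw [h2, mul_inv_cancel_right]; exact hv
  · -- N(V) normalizes X
    intro y hy a ha
    obtain ⟨w, hw, c, ⟨hcz, hcx⟩, rfl⟩ := hNdec y hy
    have h1 := h7 a⁻¹ (Subgroup.inv_mem _ ha) c hcz hcx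
    have e : w * c * a * (w * c)⁻¹ = w * (a * (a⁻¹ * c * a⁻¹⁻¹ * c⁻¹)) * w⁻¹ := by group
    rw [e]
    exact Subgroup.mul_mem _ (Subgroup.mul_mem _ hw (Subgroup.mul_mem _ ha (hRX h1)))
      (Subgroup.inv_mem _ hw)
  · -- R ≤ C(z) ∩ C(V)
    intro r hr
    exact Subgroup.mem_inf.mpr ⟨mem_cz.mpr (hRC r hr).1, (hCV r).mpr (hRC r hr)⟩
  · -- [X, C(V)] ≤ R
    intro a ha c hc
    have h1 := (hCV c).mp (Subgroup.mem_inf.mp hc).2
    exact h7 a ha c h1.1 h1.2
  · -- X ∩ C(z) ∩ C(V) = R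
    apply le_antisymm
    · intro a ha
      have h1 := Subgroup.mem_inf.mp ha
      have h2 := (hCV a).mp (Subgroup.mem_inf.mp h1.2).2
      exact hXC_R a h1.1 h2.1 h2.2
    · intro r hr
      exact Subgroup.mem_inf.mpr ⟨hRX hr,
        Subgroup.mem_inf.mpr ⟨mem_cz.mpr (hRC r hr).1, (hCV r).mpr (hRC r hr)⟩⟩

end Cfsg.Agent.Helper26.LargeXS3
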