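import Mathlib
import Cfsg.Prelude.Def_MonsterType
import Cfsg.Agent.Helper26.LargeXS2
import Cfsg.Agent.S5421
import Cfsg.Agent.S5422
import Cfsg.Agent.S1265
import Cfsg.Agent.Helper9.Layer

/-!
Simplicity from an extraspecial involution centralizer (helper26).

`isExtraspecial_of_mulEquiv`: extraspecial groups transport along isomorphisms.
`z_mem_of_normal`: for a large extraspecial `Q` with centre `⟨z⟩`, every non-trivial normal subgroup
of `G` contains `z`.  `eq_top_of_cent_le`: a normal subgroup containing `C_G(z)` is everything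
(Frattini argument).  `simple_of`: the resulting simplicity criterion.  `setup`: from
`F*(C_G(z)) = Q` extraspecial get `LX Q z` and the first hypotheses of largeness.
`large_of_conj`: largeness from a conjugate of `z` in `Q` other than `z`.
-/

set_option autoImplicit false

namespace Cfsg.Agent.Helper26.SimpleXS

open Cfsg Cfsg.Agent.Helper14.XS Cfsg.Agent.Helper26.LargeXS Cfsg.Agent.Helper26.LargeXS2

variable {G : Type*} [Group G]

/-- Extraspecial groups transport along isomorphisms. -/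
theorem isExtraspecial_of_mulEquiv {P P' : Type*} [Group P] [Group P'] (e : P ≃* P') (p : ℕ)
    (h : Cfsg.IsExtraspecial p P) : Cfsg.IsExtraspecial p P' := by
  obtain ⟨⟨hp, hfr, hcm⟩, hcard⟩ := h
  have hcen : Subgroup.center P' = (Subgroup.center P).map e.toMonoidHom := by
    ext x
    constructor
    · intro hx
      refine Subgroup.mem_map.mpr ⟨e.symm x, ?_, e.apply_symm_apply x⟩
      rw [Subgroup.mem_center_iff] at hx ⊢
      intro y
      apply e.injective
      rw [map_mul, map_mul, e.apply_symm_apply]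
      exact hx (e y)
    · intro hx
      obtain ⟨y, hy, hyx⟩ := Subgroup.mem_map.mp hx
      rw [Subgroup.mem_center_iff] at hy ⊢
      intro w
      have h1 := congrArg e (hy (e.symm w))
      rw [map_mul, map_mul, e.apply_symm_apply] at h1
      rw [← hyx]
      exact h1
  have hfrat : frattini P' = (frattini P).map e.toMonoidHom :=
    (OrderIso.map_radical (MulEquiv.mapSubgroup e)).symm
  have hcomm : commutator P' = (commutator P).map e.toMonoidHom := by
    change ⁅(⊤ : Subgroup P'), (⊤ : Subgroup P')⁆ =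
      (⁅(⊤ : Subgroup P), (⊤ : Subgroup P)⁆).map e.toMonoidHom
    rw [Subgroup.map_commutator, Subgroup.map_top_of_surjective e.toMonoidHom e.surjective]
  refine ⟨⟨hp.of_equiv e, ?_, ?_⟩, ?_⟩
  · rw [hfrat, hcen, hfr]
  · rw [hcomm, hcen, hcm]
  · rw [hcen, ← hcard]
    exact Nat.card_congr
      (Subgroup.equivMapOfInjective (Subgroup.center P) e.toMonoidHom e.injective).symm.toEquiv

/-- A non-trivial normal subgroup of a group with a large extraspecial subgroup `Q`, `Z(Q) = ⟨z⟩`,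
contains `z`. -/
theorem z_mem_of_normal [Finite G] {Q : Subgroup G} {z : G} (d : Data Q z)
    (hCQ : ∀ c : G, (∀ b ∈ Q, c * b = b * c) → c ∈ Q)
    (hN : ∀ c : G, c * z = z * c → ∀ b ∈ Q, c * b * c⁻¹ ∈ Q)
    (hodd : ∀ K : Subgroup G, Odd (Nat.card K) → Q ≤ Subgroup.normalizer (K : Set G) → K = ⊥)
    (N : Subgroup G) (hNn : N.Normal) (hN1 : N ≠ ⊥) : z ∈ N := by
  obtain ⟨hzQ, hz1, hzz, hcen, hcomm, hsqr, hrad⟩ := d
  by_contra hzN
  have hNQ : ∀ x ∈ N, x ∈ Q → x = 1 := by
    intro x hxN hxQ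
    by_contra hx1
    by_cases hc : ∀ y ∈ Q, y * x = x * y
    · rcases hrad x hxQ hc with h | h
      · exact hx1 h
      · rw [h] at hxN; exact hzN hxN
    · push Not at hc
      obtain ⟨y, hyQ, hyx⟩ := hc
      have hmem : x * y * x⁻¹ * y⁻¹ ∈ N := by
        have h1 : y * x⁻¹ * y⁻¹ ∈ N := hNn.conj_mem x⁻¹ (N.inv_mem hxN) y
        have h2 : x * y * x⁻¹ * y⁻¹ = x * (y * x⁻¹ * y⁻¹) := by group
        rw [h2]; exact N.mul_mem hxN h1
      rcases hcomm x hxQ y hyQ with h | h
      · exact hyx ((comm_eq_one_iff x y).mp h).symm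
      · rw [h] at hmem; exact hzN hmem
  have hfix : ∀ n ∈ N, z * n = n * z → n = 1 := by
    intro n hnN hnz
    apply hNQ n hnN
    apply hCQ
    intro b hb
    have h1 : n * b * n⁻¹ ∈ Q := hN n hnz.symm b hb
    have h2 : n * b * n⁻¹ * b⁻¹ ∈ Q := Q.mul_mem h1 (Q.inv_mem hb)
    have h3 : n * b * n⁻¹ * b⁻¹ ∈ N := by
      have h4 : b * n⁻¹ * b⁻¹ ∈ N := hNn.conj_mem n⁻¹ (N.inv_mem hnN) b
      have h5 : n * b * n⁻¹ * b⁻¹ = n * (b * n⁻¹ * b⁻¹) := by group
      rw [h5]; exact N.mul_mem hnN h4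
    exact (comm_eq_one_iff n b).mp (hNQ _ h3 h2)
  have hinv := Cfsg.Agent.S5421.inverts_of_fixed_point_free N z hzz
    (fun k hk => hNn.conj_mem k hk z) hfix
  have hoddN : Odd (Nat.card N) := by
    by_contra hno
    have heven : 2 ∣ Nat.card N := by
      rcases Nat.even_or_odd (Nat.card N) with h | h
      · exact even_iff_two_dvd.mp h
      · exact absurd h hno
    haveI : Fact (Nat.Prime 2) := ⟨Nat.prime_two⟩
    obtain ⟨t, ht⟩ := exists_prime_orderOf_dvd_card' 2 heven
    have ht1 : (t : G) ≠ 1 := by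
      intro h
      have h' : t = 1 := Subtype.ext h
      rw [h', orderOf_one] at ht
      exact absurd ht (by norm_num)
    have htt : (t : G) * (t : G) = 1 := by
      have h := pow_orderOf_eq_one t
      rw [ht, pow_two] at h
      exact congrArg Subtype.val h
    have hti : (t : G)⁻¹ = t := inv_eq_of_mul_eq_one_left htt
    have h1 := hinv t t.2
    rw [hti] at h1
    have h2 : z * (t : G) = (t : G) * z := by
      calc z * (t : G) = (z * t * z⁻¹) * z := by group
        _ = (t : G) * z := by rw [h1]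
    exact ht1 (hfix t t.2 h2)
  apply hN1
  apply hodd N hoddN
  intro q _
  rw [Subgroup.mem_normalizer_iff]
  intro h
  constructor
  · intro hh; exact hNn.conj_mem h hh q
  · intro hh
    have h1 := hNn.conj_mem _ hh q⁻¹
    have e : q⁻¹ * (q * h * q⁻¹) * q⁻¹⁻¹ = h := by group
    rw [e] at h1; exact h1

/-- A normal subgroup containing the centralizer of `z` is the whole group (Frattini). -/
theorem eq_top_of_cent_le [Finite G] {Q : Subgroup G} {z : G} (d : Data Q z)
    (hQ2 : IsPGroup 2 Q) (hCQ : ∀ c : G, (∀ b ∈ Q, c * b = b * c) → c ∈ Q)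
    (N : Subgroup G) (hNn : N.Normal) (hCN : ∀ c : G, c * z = z * c → c ∈ N) : N = ⊤ := by
  obtain ⟨hzQ, hz1, hzz, hcen, hcomm, hsqr, hrad⟩ := d
  haveI := hNn
  haveI : Fact (Nat.Prime 2) := ⟨Nat.prime_two⟩
  have hQN : Q ≤ N := fun b hb => hCN b (hcen b hb)
  obtain ⟨P, hP⟩ := (hQ2.comap_subtype (K := N)).exists_le_sylow
  have hfr := Sylow.normalizer_sup_eq_top P
  obtain ⟨T, hT⟩ : ∃ T : Subgroup G, T = (P : Subgroup N).map N.subtype := ⟨_, rfl⟩
  rw [← hT] at hfr
  have hQT : Q ≤ T := by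
    intro b hb
    rw [hT]
    exact Subgroup.mem_map.mpr
      ⟨⟨b, hQN hb⟩, hP (show (⟨b, hQN hb⟩ : N) ∈ Q.comap N.subtype from hb), rfl⟩
  have hT2 : IsPGroup 2 T := by rw [hT]; exact P.isPGroup'.map N.subtype
  haveI : Nontrivial T := ⟨⟨⟨z, hQT hzQ⟩, 1, fun h => hz1 (congrArg Subtype.val h)⟩⟩
  haveI := hT2.center_nontrivial
  obtain ⟨c, hc1⟩ := exists_ne (1 : Subgroup.center T)
  have hcc : ∀ t ∈ T, t * ((c : T) : G) = ((c : T) : G) * t := by
    intro t ht
    have h := Subgroup.mem_center_iff.mp c.2 ⟨t, ht⟩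
    exact congrArg Subtype.val h
  have hcQ : ((c : T) : G) ∈ Q := hCQ _ (fun b hb => (hcc b (hQT hb)).symm)
  have hcz : ((c : T) : G) = z := by
    rcases hrad _ hcQ (fun x hx => hcc x (hQT hx)) with h | h
    · exfalso; apply hc1; exact Subtype.ext (Subtype.ext h)
    · exact h
  rw [hcz] at hcc
  have hNT : Subgroup.normalizer (T : Set G) ≤ N := by
    intro a ha
    apply hCN
    have hx : ∀ b ∈ Q, (a * z * a⁻¹) * b = b * (a * z * a⁻¹) := by
      intro b hb
      have h1 : a⁻¹ * b * a⁻¹⁻¹ ∈ T :=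
        (Subgroup.mem_normalizer_iff.mp (Subgroup.inv_mem _ ha) b).mp (hQT hb)
      have h2 := hcc _ h1
      calc (a * z * a⁻¹) * b = a * (z * (a⁻¹ * b * a⁻¹⁻¹)) * a⁻¹ := by group
        _ = a * ((a⁻¹ * b * a⁻¹⁻¹) * z) * a⁻¹ := by rw [h2]
        _ = b * (a * z * a⁻¹) := by group
    have hxQ : a * z * a⁻¹ ∈ Q := hCQ _ hx
    rcases hrad _ hxQ (fun x hx' => (hx x hx').symm) with h | h
    · exfalso; apply hz1
      have e : z = a⁻¹ * (a * z * a⁻¹) * a := by group
      rw [e, h]; group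
    · calc a * z = (a * z * a⁻¹) * a := by group
        _ = z * a := by rw [h]
  rw [eq_top_iff, ← hfr]
  exact sup_le hNT le_rfl

/-- Simplicity criterion. -/
theorem simple_of [Finite G] {Q : Subgroup G} {z : G} (h : LX Q z)
    (hodd : ∀ K : Subgroup G, Odd (Nat.card K) → Q ≤ Subgroup.normalizer (K : Set G) → K = ⊥)
    (hgen : ∀ N : Subgroup G, N.Normal → z ∈ N → ∀ c : G, c * z = z * c → c ∈ N) :
    IsSimpleGroup G := by
  obtain ⟨d, hQ2, hCQ, hN⟩ := h
  refine { exists_pair_ne := ⟨z, 1, d.2.1⟩, eq_bot_or_eq_top_of_normal := ?_ }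
  intro N hNn
  by_cases hN1 : N = ⊥
  · exact Or.inl hN1
  · exact Or.inr (eq_top_of_cent_le d hQ2 hCQ N hNn
      (hgen N hNn (z_mem_of_normal d hCQ hN hodd N hNn hN1)))

/-- From `F*(C_G(z)) = Q` extraspecial: `LX Q z` and the hypotheses of largeness. -/
theorem setup [Finite G] (z : G) (hz : orderOf z = 2) (Q : Subgroup G)
    (hF : (Cfsg.generalizedFittingSubgroup ↥(Subgroup.centralizer ({z} : Set G))).map
      (Subgroup.centralizer ({z} : Set G)).subtype = Q)
    (hQ : Cfsg.IsExtraspecial 2 ↥Q) :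
    LX Q z ∧ (∀ g : G, g ∈ (Subgroup.center ↥Q).map Q.subtype ↔ (g = 1 ∨ g = z)) ∧
    Subgroup.centralizer (Q : Set G) = (Subgroup.center ↥Q).map Q.subtype ∧
    Subgroup.centralizer (((Subgroup.center ↥Q).map Q.subtype : Subgroup G) : Set G) ≤
      Subgroup.normalizer (Q : Set G) := by
  have hz1 : z ≠ 1 := by
    intro h; rw [h, orderOf_one] at hz; exact absurd hz (by norm_num)
  have hzC : z ∈ Subgroup.centralizer ({z} : Set G) := mem_cz.mpr rfl
  have hQC : ∀ b ∈ Q, b * z = z * b := by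
    intro b hb
    rw [← hF] at hb
    obtain ⟨y, -, hy⟩ := Subgroup.mem_map.mp hb
    rw [← hy]
    exact mem_cz.mp y.2
  have hmemQ : ∀ (c : G) (hc : c ∈ Subgroup.centralizer ({z} : Set G)),
      c ∈ Q ↔ (⟨c, hc⟩ : Subgroup.centralizer ({z} : Set G)) ∈
        Cfsg.generalizedFittingSubgroup ↥(Subgroup.centralizer ({z} : Set G)) := by
    intro c hc
    rw [← hF]
    constructor
    · intro h
      obtain ⟨y, hy, hyc⟩ := Subgroup.mem_map.mp h
      have e : y = ⟨c, hc⟩ := Subtype.ext hyc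
      rw [← e]; exact hy
    · intro h
      exact Subgroup.mem_map.mpr ⟨_, h, rfl⟩
  have hkey : ∀ (c : G) (hc : c ∈ Subgroup.centralizer ({z} : Set G)),
      (∀ b ∈ Q, c * b = b * c) → c ∈ Q := by
    intro c hc hcb
    rw [hmemQ c hc]
    apply Cfsg.Agent.S1265.result
    rw [Subgroup.mem_centralizer_iff]
    intro y hy
    apply Subtype.ext
    have hyQ : (y : G) ∈ Q := (hmemQ y y.2).mpr hy
    exact (hcb y hyQ).symm
  have hzQ : z ∈ Q := hkey z hzC (fun b hb => (hQC b hb).symm)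
  have hCQ : ∀ c : G, (∀ b ∈ Q, c * b = b * c) → c ∈ Q :=
    fun c hc => hkey c (mem_cz.mpr (hc z hzQ)) hc
  have hFn := Cfsg.Agent.Helper9.generalizedFittingSubgroup_normal
    ↥(Subgroup.centralizer ({z} : Set G))
  have hN : ∀ c : G, c * z = z * c → ∀ b ∈ Q, c * b * c⁻¹ ∈ Q := by
    intro c hc b hb
    have hcC : c ∈ Subgroup.centralizer ({z} : Set G) := mem_cz.mpr hc
    have hbC : b ∈ Subgroup.centralizer ({z} : Set G) := mem_cz.mpr (hQC b hb)
    have h1 := (hmemQ b hbC).mp hb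
    have h2 := hFn.conj_mem _ h1 ⟨c, hcC⟩
    exact (hmemQ _ (Subgroup.mul_mem _ (Subgroup.mul_mem _ hcC hbC) (Subgroup.inv_mem _ hcC))).mpr h2
  obtain ⟨z0, d, hcenter⟩ := of_extraspecial Q hQ
  have hzcen : z ∈ (Subgroup.center ↥Q).map Q.subtype := by
    refine Subgroup.mem_map.mpr ⟨⟨z, hzQ⟩, ?_, rfl⟩
    rw [Subgroup.mem_center_iff]
    intro y
    apply Subtype.ext
    exact hQC y y.2
  have hz0 : z0 = z := by
    rcases (hcenter z).mp hzcen with h | h
    · exact absurd h hz1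
    · exact h.symm
  rw [hz0] at d hcenter
  refine ⟨⟨d, hQ.1.1, hCQ, hN⟩, hcenter, ?_, ?_⟩
  · ext c
    constructor
    · intro hc
      rw [Subgroup.mem_centralizer_iff] at hc
      have hcQ : c ∈ Q := hCQ c (fun b hb => (hc b hb).symm)
      refine Subgroup.mem_map.mpr ⟨⟨c, hcQ⟩, ?_, rfl⟩
      rw [Subgroup.mem_center_iff]
      intro y
      apply Subtype.ext
      exact hc y y.2
    · intro hc
      rw [Subgroup.mem_centralizer_iff]
      intro b hb
      rcases (hcenter c).mp hc with h | h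
      · rw [h, mul_one, one_mul]
      · rw [h]; exact hQC b hb
  · intro c hc
    rw [Subgroup.mem_centralizer_iff] at hc
    have hcz : c * z = z * c := (hc z hzcen).symm
    exact mem_normalizer_of_conj (fun y hy => hN c hcz y hy)

/-- Largeness from a conjugate of `z` inside `Q` other than `z`. -/
theorem large_of_conj [Finite G] {z : G} {Q : Subgroup G} (hQ : Cfsg.IsExtraspecial 2 ↥Q)
    (hcenter : ∀ g : G, g ∈ (Subgroup.center ↥Q).map Q.subtype ↔ (g = 1 ∨ g = z)) (hz1 : z ≠ 1)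
    (hL2 : Subgroup.centralizer (Q : Set G) = (Subgroup.center ↥Q).map Q.subtype)
    (hL3 : Subgroup.centralizer (((Subgroup.center ↥Q).map Q.subtype : Subgroup G) : Set G) ≤
      Subgroup.normalizer (Q : Set G))
    (w : ℕ) (hw : 2 ≤ w) (hcard : Nat.card ↥Q = 2 ^ (2 * w + 1))
    (k : G) (hkQ : k * z * k⁻¹ ∈ Q) (hkz : k * z * k⁻¹ ≠ z) : Cfsg.IsLargeExtraspecial Q := by
  have hzcen : z ∈ (Subgroup.center ↥Q).map Q.subtype := (hcenter z).mpr (Or.inr rfl)
  refine (Cfsg.Agent.S5422.result Q hQ hL2 hL3 w hw hcard k ?_ ?_).2.2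
  · intro hk
    have h1 : k * z * k⁻¹ ∈ (Subgroup.center ↥Q).map Q.subtype :=
      (Subgroup.mem_normalizer_iff.mp hk z).mp hzcen
    rcases (hcenter _).mp h1 with h | h
    · apply hz1
      have e : z = k⁻¹ * (k * z * k⁻¹) * k := by group
      rw [e, h]; group
    · exact hkz h
  · intro v hv
    obtain ⟨c, hc, hcv⟩ := Subgroup.mem_map.mp hv
    rw [← hcv]
    rcases (hcenter c).mp hc with h | h
    · rw [h, map_one]; exact Q.one_mem
    · rw [h]; exact hkQ

end Cfsg.Agent.Helper26.SimpleXS
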