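import Mathlib
import Cfsg.Prelude.Def_MonsterType
import Cfsg.Agent.Helper26.LargeXS2
import Cfsg.Agent.Helper26.XSTransfer
import Cfsg.Agent.S5421

/-!
Large extraspecial subgroups in a quotient `C_G(t) / ⟨t⟩` (helper26).

`mem_zpowers_two`, `mk_eq_iff`: equality in `C / ⟨t⟩` for an involution `t` central in `C`.
`large_of_LX`: `LX Q z`, `Q` extraspecial and a conjugate of `z` in `Q` other than `z` give a large
extraspecial subgroup (no hypothesis on the order).  `exists_noncomm_cent`: for `|Q| > 8` the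
centralizer in `Q` of a non-central element is not commutative.  `quot_large`: for a non-central
involution `t` of `Q` not conjugate to `z`, the image of `P = C_Q(t)` in `C_G(t) / ⟨t⟩` is large
extraspecial, given the self-centralizing hypothesis on `P` and a conjugate of `z` in `P`.
-/

set_option autoImplicit false

namespace Cfsg.Agent.Helper26.XSQuot

open Cfsg Cfsg.Agent.Helper14.XS Cfsg.Agent.Helper26.LargeXS Cfsg.Agent.Helper26.LargeXS2
  Cfsg.Agent.Helper26.Singular Cfsg.Agent.Helper26.XSTransfer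

variable {G : Type*} [Group G]

theorem mem_zpowers_two {t x : G} (htt : t * t = 1) :
    x ∈ Subgroup.zpowers t ↔ x = 1 ∨ x = t := by
  constructor
  · intro hx
    obtain ⟨k, hk⟩ := Subgroup.mem_zpowers_iff.mp hx
    rcases Int.even_or_odd' k with ⟨m, hm | hm⟩
    · left; rw [← hk, hm, zpow_mul, zpow_two, htt, one_zpow]
    · right; rw [← hk, hm, zpow_add, zpow_mul, zpow_two, htt, one_zpow, one_mul, zpow_one]
  · rintro (h | h)
    · rw [h]; exact Subgroup.one_mem _
    · rw [h]; exact Subgroup.mem_zpowers t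

theorem mk_eq_iff {C : Subgroup G} {t : G} (htt : t * t = 1)
    [hn : ((Subgroup.zpowers t).subgroupOf C).Normal] (a b : ↥C) :
    QuotientGroup.mk' ((Subgroup.zpowers t).subgroupOf C) a =
      QuotientGroup.mk' ((Subgroup.zpowers t).subgroupOf C) b ↔
      (b : G) = a ∨ (b : G) = a * t := by
  rw [QuotientGroup.mk'_apply, QuotientGroup.mk'_apply, QuotientGroup.eq,
    Subgroup.mem_subgroupOf, mem_zpowers_two htt]
  constructor
  · rintro (h | h)
    · left
      have h' : (a : G)⁻¹ * (b : G) = 1 := h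
      calc (b : G) = a * ((a : G)⁻¹ * b) := by group
        _ = a := by rw [h', mul_one]
    · right
      have h' : (a : G)⁻¹ * (b : G) = t := h
      calc (b : G) = a * ((a : G)⁻¹ * b) := by group
        _ = a * t := by rw [h']
  · rintro (h | h)
    · left
      show (a : G)⁻¹ * (b : G) = 1
      rw [h]; group
    · right
      show (a : G)⁻¹ * (b : G) = t
      rw [h]; group

/-- Largeness from `LX`, extraspecial, and a conjugate of `z` in `Q` other than `z`. -/
theorem large_of_LX [Finite G] {Q : Subgroup G} {z : G} (h : LX Q z)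
    (hQ : Cfsg.IsExtraspecial 2 ↥Q) (g : G) (hgQ : g * z * g⁻¹ ∈ Q) (hgz : g * z * g⁻¹ ≠ z) :
    Cfsg.IsLargeExtraspecial Q := by
  obtain ⟨d, hQ2, hCQ, hN⟩ := h
  have d' := d
  obtain ⟨hzQ, hz1, hzz, hcen, hcomm, hsqr, hrad⟩ := d'
  obtain ⟨z0, d0, hcenter⟩ := of_extraspecial Q hQ
  have hzcen : z ∈ (Subgroup.center ↥Q).map Q.subtype := by
    refine Subgroup.mem_map.mpr ⟨⟨z, hzQ⟩, ?_, rfl⟩
    rw [Subgroup.mem_center_iff]
    intro y
    apply Subtype.ext
    exact hcen y y.2
  have hz0 : z0 = z := by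
    rcases (hcenter z).mp hzcen with h | h
    · exact absurd h hz1
    · exact h.symm
  rw [hz0] at hcenter
  have hL2 : Subgroup.centralizer (Q : Set G) = (Subgroup.center ↥Q).map Q.subtype := by
    ext c
    constructor
    · intro hc
      rw [Subgroup.mem_centralizer_iff] at hc
      have hcQ : c ∈ Q := hCQ c (fun b hb => (hc b hb).symm)
      refine Subgroup.mem_map.mpr ⟨⟨c, hcQ⟩, ?_, rfl⟩
      rw [Subgroup.mem_center_iff]
      intro y
      apply Subtype.ext
      exact hc y y.2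
    · intro hc
      rw [Subgroup.mem_centralizer_iff]
      intro b hb
      rcases (hcenter c).mp hc with h | h
      · rw [h, mul_one, one_mul]
      · rw [h]; exact hcen b hb
  have hL3 : Subgroup.centralizer (((Subgroup.center ↥Q).map Q.subtype : Subgroup G) : Set G) ≤
      Subgroup.normalizer (Q : Set G) := by
    intro c hc
    rw [Subgroup.mem_centralizer_iff] at hc
    have hcz : c * z = z * c := (hc z hzcen).symm
    exact mem_normalizer_of_conj (fun y hy => hN c hcz y hy)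
  have hb1 : g * z * g⁻¹ ≠ 1 := by
    intro h1
    apply hz1
    have e : z = g⁻¹ * (g * z * g⁻¹) * g := by group
    rw [e, h1]; group
  have hb2 : orderOf (g * z * g⁻¹) = 2 := by
    haveI : Fact (Nat.Prime 2) := ⟨Nat.prime_two⟩
    apply orderOf_eq_prime
    · rw [pow_two]
      calc g * z * g⁻¹ * (g * z * g⁻¹) = g * (z * z) * g⁻¹ := by group
        _ = 1 := by rw [hzz, mul_one, mul_inv_cancel]
    · exact hb1
  have hbZ : g * z * g⁻¹ ∉ (Subgroup.center ↥Q).map Q.subtype := by
    intro h1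
    rcases (hcenter _).mp h1 with h2 | h2
    · exact hb1 h2
    · exact hgz h2
  have hkp := key_pCore d hQ2 hCQ hN g hgQ
  refine Cfsg.Agent.S5421.result Q hQ hL2 hL3 (g * z * g⁻¹) hgQ hbZ hb2 ?_
  intro v hv
  rcases (hcenter v).mp hv with h1 | h1
  · rw [h1]; exact Subgroup.one_mem _
  · rw [h1]; exact hkp

/-- For `|Q| > 8` the centralizer in `Q` of a non-central element is not commutative. -/
theorem exists_noncomm_cent {Q : Subgroup G} {z : G} (d : Data Q z) {y : G} (hyQ : y ∈ Q)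
    (hy1 : y ≠ 1) (hyz : y ≠ z) (h8 : 8 < Nat.card Q) :
    ∃ p ∈ Q, ∃ r ∈ Q, p * y = y * p ∧ r * y = y * r ∧ p * r ≠ r * p := by
  have d' := d
  obtain ⟨hzQ, hz1, hzz, hcen, hcomm, hsqr, hrad⟩ := d'
  obtain ⟨q1, hq1Q, hq1⟩ := exists_moving d hyQ hy1 hyz
  have hq1M : q1 ∉ cen y := by
    intro h
    have h1 : q1 * y = y * q1 := mem_cen.mp h
    have h2 : q1 * y = z * y * q1 := hq1.eq
    apply hz1
    have h3 : z * (y * q1) = 1 * (y * q1) := by rw [one_mul, ← mul_assoc, ← h2, h1]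
    exact mul_right_cancel h3
  have hzM : z ∈ cen y := mem_cen.mpr (hcen y hyQ).symm
  have hidxM : ∀ a ∈ Q, ∀ b ∈ Q, a ∉ cen y → b ∉ cen y → a⁻¹ * b ∈ cen y := by
    intro a ha b hb haM hbM
    have h1 : a * y = z * y * a := by
      rcases sb_of_comm d ha hyQ with h | h
      · exact (haM (mem_cen.mpr h.eq)).elim
      · exact h.eq
    have h2 : b * y = z * y * b := by
      rcases sb_of_comm d hb hyQ with h | h
      · exact (hbM (mem_cen.mpr h.eq)).elim
      · exact h.eq
    apply mem_cen.mpr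
    calc a⁻¹ * b * y = a⁻¹ * (b * y) := by group
      _ = a⁻¹ * (z * y * b) := by rw [h2]
      _ = a⁻¹ * (z * y * a) * (a⁻¹ * b) := by group
      _ = a⁻¹ * (a * y) * (a⁻¹ * b) := by rw [h1]
      _ = y * (a⁻¹ * b) := by group
  by_contra hcon
  push Not at hcon
  have h := card_le_eight d (cen y) hzM hq1Q hq1M hidxM
    (fun a ha b hb haM hbM => hcon a ha b hb (mem_cen.mp haM) (mem_cen.mp hbM))
  omega

/-- The image of `P = C_Q(t)` in `C_G(t) / ⟨t⟩` is large extraspecial. -/
theorem quot_large [Finite G] {Q : Subgroup G} {z t : G} (h : LX Q z) (htQ : t ∈ Q)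
    (htt : t * t = 1) (ht1 : t ≠ 1) (htz : ¬ IsConj z t) (h8 : 8 < Nat.card Q)
    (P C : Subgroup G) (hC : ∀ c : G, c ∈ C ↔ c * t = t * c)
    (hP : ∀ x : G, x ∈ P ↔ x ∈ Q ∧ x * t = t * x)
    (hCP : ∀ c ∈ Subgroup.centralizer ({z} : Set G),
      (∀ x ∈ P, ∃ y ∈ Subgroup.closure ({t, z} : Set G), c * x * c⁻¹ = x * y) → c ∈ Q)
    [hn : ((Subgroup.zpowers t).subgroupOf C).Normal]
    (c0 : G) (hc0 : c0 * t = t * c0) (hc0P : c0 * z * c0⁻¹ ∈ P) (hc0z : c0 * z * c0⁻¹ ≠ z)
    (hc0zt : c0 * z * c0⁻¹ ≠ z * t) :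
    Cfsg.IsLargeExtraspecial ((P.subgroupOf C).map
      (QuotientGroup.mk' ((Subgroup.zpowers t).subgroupOf C))) := by
  classical
  obtain ⟨d, hQ2, hCQ, hN⟩ := h
  have d' := d
  obtain ⟨hzQ, hz1, hzz, hcen, hcomm, hsqr, hrad⟩ := d'
  obtain ⟨π, hπ⟩ : ∃ π : ↥C →* ↥C ⧸ (Subgroup.zpowers t).subgroupOf C,
      π = QuotientGroup.mk' ((Subgroup.zpowers t).subgroupOf C) := ⟨_, rfl⟩
  rw [← hπ]
  have hE1 : ∀ a b : ↥C, π a = π b ↔ (b : G) = a ∨ (b : G) = a * t := by
    intro a b; rw [hπ]; exact mk_eq_iff htt a b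
  have hsurj : ∀ y : ↥C ⧸ (Subgroup.zpowers t).subgroupOf C, ∃ c : ↥C, π c = y := by
    intro y; rw [hπ]; exact QuotientGroup.mk'_surjective _ y
  have hPC : ∀ x ∈ P, x ∈ C := fun x hx => (hC x).mpr ((hP x).mp hx).2
  have hPQ : ∀ x ∈ P, x ∈ Q := fun x hx => ((hP x).mp hx).1
  have hmemP : ∀ y, y ∈ (P.subgroupOf C).map π ↔ ∃ p : ↥C, (p : G) ∈ P ∧ π p = y := by
    intro y
    rw [Subgroup.mem_map]
    constructor
    · rintro ⟨p, hp, rfl⟩; exact ⟨p, Subgroup.mem_subgroupOf.mp hp, rfl⟩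
    · rintro ⟨p, hp, rfl⟩; exact ⟨p, Subgroup.mem_subgroupOf.mpr hp, rfl⟩
  have hzC : z ∈ C := (hC z).mpr (hcen t htQ).symm
  have hzP : z ∈ P := (hP z).mpr ⟨hzQ, (hcen t htQ).symm⟩
  have htne : t ≠ z := fun h => htz (by rw [h])
  obtain ⟨q0, hq0Q, hq0⟩ := exists_moving d htQ ht1 htne
  have hnc : ∀ c : G, c * z * c⁻¹ ≠ z * t := by
    intro c hc
    apply htz
    have h1 : IsConj z (z * t) := isConj_iff.mpr ⟨c, hc⟩
    have h2 : IsConj t (z * t) := isConj_iff.mpr ⟨q0, by rw [hq0.eq, mul_inv_cancel_right]⟩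
    exact h1.trans h2.symm
  obtain ⟨zC, hzCdef⟩ : ∃ zC : ↥C, (zC : G) = z := ⟨⟨z, hzC⟩, rfl⟩
  have hcommt : ∀ a ∈ P, ∀ x ∈ P, a * x = x * a * t → False := by
    intro a ha x hx h3
    have hta : a * t = t * a := ((hP a).mp ha).2
    have htx : x * t = t * x := ((hP x).mp hx).2
    have h4 : a * x * a⁻¹ * x⁻¹ = t := by
      rw [h3]
      calc x * a * t * a⁻¹ * x⁻¹ = x * (a * t) * a⁻¹ * x⁻¹ := by group
        _ = x * (t * a) * a⁻¹ * x⁻¹ := by rw [hta]
        _ = (x * t) * x⁻¹ := by group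
        _ = (t * x) * x⁻¹ := by rw [htx]
        _ = t := by group
    rcases hcomm a (hPQ a ha) x (hPQ x hx) with h5 | h5
    · exact ht1 (h4.symm.trans h5)
    · exact htne (h4.symm.trans h5)
  have hcz_of : ∀ c : ↥C, π (c * zC) = π (zC * c) → (c : G) * z = z * c := by
    intro c hh
    rcases (hE1 _ _).mp hh with h2 | h2
    · have h3 : (zC : G) * (c : G) = (c : G) * (zC : G) := h2
      rw [hzCdef] at h3
      exact h3.symm
    · exfalso
      have h3 : (zC : G) * (c : G) = (c : G) * (zC : G) * t := h2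
      rw [hzCdef] at h3
      apply hnc (c : G)⁻¹
      rw [inv_inv]
      calc (c : G)⁻¹ * z * c = (c : G)⁻¹ * (z * c) := by group
        _ = (c : G)⁻¹ * (c * z * t) := by rw [h3]
        _ = z * t := by group
  have dq : Data ((P.subgroupOf C).map π) (π zC) := by
    refine ⟨?_, ?_, ?_, ?_, ?_, ?_, ?_⟩
    · exact (hmemP _).mpr ⟨zC, by rw [hzCdef]; exact hzP, rfl⟩
    · intro hh
      have h1 : π zC = π 1 := by rw [hh, map_one]
      rcases (hE1 _ _).mp h1 with h2 | h2
      · have h3 : (1 : G) = (zC : G) := h2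
        rw [hzCdef] at h3
        exact hz1 h3.symm
      · have h3 : (1 : G) = (zC : G) * t := h2
        rw [hzCdef] at h3
        apply htne
        calc t = z * (z * t) := by rw [← mul_assoc, hzz, one_mul]
          _ = z := by rw [← h3, mul_one]
    · rw [← map_mul]
      have e : zC * zC = 1 := by
        apply Subtype.ext
        show (zC : G) * (zC : G) = 1
        rw [hzCdef]; exact hzz
      rw [e, map_one]
    · intro x hx
      obtain ⟨p, hp, rfl⟩ := (hmemP x).mp hx
      rw [← map_mul, ← map_mul]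
      apply congrArg π
      apply Subtype.ext
      show (p : G) * (zC : G) = (zC : G) * (p : G)
      rw [hzCdef]; exact hcen p (hPQ p hp)
    · intro a ha x hx
      obtain ⟨p, hp, rfl⟩ := (hmemP a).mp ha
      obtain ⟨r, hr, rfl⟩ := (hmemP x).mp hx
      have hkey : π (p * r * p⁻¹ * r⁻¹) = π p * π r * (π p)⁻¹ * (π r)⁻¹ := by
        simp only [map_mul, map_inv]
      rw [← hkey]
      rcases hcomm p (hPQ p hp) r (hPQ r hr) with h | h
      · left
        have e : p * r * p⁻¹ * r⁻¹ = 1 := Subtype.ext h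
        rw [e, map_one]
      · right
        apply congrArg π
        apply Subtype.ext
        rw [hzCdef]; exact h
    · intro x hx
      obtain ⟨p, hp, rfl⟩ := (hmemP x).mp hx
      rw [← map_mul]
      rcases hsqr p (hPQ p hp) with h | h
      · left
        have e : p * p = 1 := Subtype.ext h
        rw [e, map_one]
      · right
        apply congrArg π
        apply Subtype.ext
        rw [hzCdef]; exact h
    · intro w hw hcw
      obtain ⟨p, hp, rfl⟩ := (hmemP w).mp hw
      have hcomm_p : ∀ x ∈ P, x * (p : G) = (p : G) * x := by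
        intro x hx
        have h1 := hcw (π ⟨x, hPC x hx⟩) ((hmemP _).mpr ⟨⟨x, hPC x hx⟩, hx, rfl⟩)
        rw [← map_mul, ← map_mul] at h1
        rcases (hE1 _ _).mp h1 with h2 | h2
        · exact h2.symm
        · exact (hcommt p hp x hx h2).elim
      have hp4 : (p : G) = 1 ∨ (p : G) = z ∨ (p : G) = t ∨ (p : G) = z * t := by
        by_contra hnot
        have hnotcl : (p : G) ∉ Subgroup.closure (insert z ((({t} : Finset G) : Set G))) := by
          intro hcl
          have hle : Subgroup.closure (insert z ((({t} : Finset G) : Set G))) ≤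
              four z t hzz htt (hcen t htQ) := by
            rw [Subgroup.closure_le]
            intro v hv
            rw [Finset.coe_singleton] at hv
            rcases hv with h | h
            · rw [h]; exact mem_four.mpr (Or.inr (Or.inl rfl))
            · rw [Set.mem_singleton_iff.mp h]
              exact mem_four.mpr (Or.inr (Or.inr (Or.inl rfl)))
          exact hnot (mem_four.mp (hle hcl))
        obtain ⟨g0, hg0Q, hg0t, hg0p⟩ := exists_comm d {t}
          (by intro a ha; rw [Finset.mem_singleton.mp ha]; exact htQ) p (hPQ p hp) hnotcl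
        have hg0P : g0 ∈ P := (hP g0).mpr ⟨hg0Q, hg0t t (Finset.mem_singleton_self t)⟩
        have h6 : g0 * (p : G) = (p : G) * g0 := hcomm_p g0 hg0P
        have h7 : g0 * (p : G) = z * p * g0 := hg0p.eq
        apply hz1
        have h8 : z * ((p : G) * g0) = 1 * ((p : G) * g0) := by
          rw [one_mul, ← mul_assoc, ← h7, h6]
        exact mul_right_cancel h8
      rcases hp4 with h | h | h | h
      · left
        have e : p = 1 := Subtype.ext h
        rw [e, map_one]
      · right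
        apply congrArg π
        apply Subtype.ext
        rw [hzCdef]; exact h
      · left
        have h1 : π (1 : ↥C) = π p := (hE1 1 p).mpr (Or.inr (by rw [h]; exact (one_mul t).symm))
        rw [← h1, map_one]
      · right
        exact ((hE1 zC p).mpr (Or.inr (by rw [h, hzCdef]))).symm
  have hP2 : IsPGroup 2 (P.subgroupOf C) := (hQ2.to_le (fun x hx => hPQ x hx)).comap_subtype
  have hCQ' : ∀ c : ↥C ⧸ (Subgroup.zpowers t).subgroupOf C,
      (∀ b ∈ (P.subgroupOf C).map π, c * b = b * c) → c ∈ (P.subgroupOf C).map π := by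
    intro cb hcb
    obtain ⟨c, rfl⟩ := hsurj cb
    have hpc : ∀ x (hx : x ∈ P), x * (c : G) = (c : G) * x ∨ x * (c : G) = (c : G) * x * t := by
      intro x hx
      have h1 := hcb (π ⟨x, hPC x hx⟩) ((hmemP _).mpr ⟨⟨x, hPC x hx⟩, hx, rfl⟩)
      rw [← map_mul, ← map_mul] at h1
      exact (hE1 _ _).mp h1
    have hcz : (c : G) * z = z * c := by
      rcases hpc z hzP with h | h
      · exact h.symm
      · exfalso
        apply hnc (c : G)⁻¹
        rw [inv_inv]
        calc (c : G)⁻¹ * z * c = (c : G)⁻¹ * (z * c) := by group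
          _ = (c : G)⁻¹ * (c * z * t) := by rw [h]
          _ = z * t := by group
    have hct : (c : G) * t = t * c := (hC c).mp c.2
    have hcQ : (c : G) ∈ Q := by
      apply hCP (c : G) (mem_cz.mpr hcz)
      intro x hx
      rcases hpc x hx with h | h
      · refine ⟨1, Subgroup.one_mem _, ?_⟩
        rw [mul_one, ← h, mul_inv_cancel_right]
      · refine ⟨t, Subgroup.subset_closure (Set.mem_insert t _), ?_⟩
        have htinv : t⁻¹ = t := inv_eq_of_mul_eq_one_left htt
        calc (c : G) * x * (c : G)⁻¹ = ((c : G) * x * t) * t⁻¹ * (c : G)⁻¹ := by group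
          _ = (x * c) * t * (c : G)⁻¹ := by rw [← h, htinv]
          _ = x * ((c : G) * t) * (c : G)⁻¹ := by group
          _ = x * (t * c) * (c : G)⁻¹ := by rw [hct]
          _ = x * t := by group
    exact (hmemP _).mpr ⟨c, (hP c).mpr ⟨hcQ, hct⟩, rfl⟩
  have hN' : ∀ c : ↥C ⧸ (Subgroup.zpowers t).subgroupOf C, c * π zC = π zC * c →
      ∀ b ∈ (P.subgroupOf C).map π, c * b * c⁻¹ ∈ (P.subgroupOf C).map π := by
    intro cb hcb bb hbb
    obtain ⟨c, rfl⟩ := hsurj cb
    obtain ⟨p, hp, rfl⟩ := (hmemP bb).mp hbb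
    rw [← map_mul, ← map_mul] at hcb
    have hcz : (c : G) * z = z * c := hcz_of c hcb
    have h1 : (c : G) * p * (c : G)⁻¹ ∈ Q := hN c hcz p (hPQ p hp)
    have hkey : π (c * p * c⁻¹) = π c * π p * (π c)⁻¹ := by simp only [map_mul, map_inv]
    rw [← hkey]
    exact (hmemP _).mpr ⟨c * p * c⁻¹, (hP _).mpr ⟨h1, (hC _).mp (c * p * c⁻¹).2⟩, rfl⟩
  have hLXq : LX ((P.subgroupOf C).map π) (π zC) := ⟨dq, hP2.map π, hCQ', hN'⟩
  obtain ⟨p, hpQ, r, hrQ, hpt, hrt, hpr⟩ := exists_noncomm_cent d htQ ht1 htne h8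
  have hpP : p ∈ P := (hP p).mpr ⟨hpQ, hpt⟩
  have hrP : r ∈ P := (hP r).mpr ⟨hrQ, hrt⟩
  have hXS : Cfsg.IsExtraspecial 2 ↥((P.subgroupOf C).map π) := by
    refine to_extraspecial _ _ dq ⟨π ⟨p, hPC p hpP⟩, (hmemP _).mpr ⟨_, hpP, rfl⟩,
      π ⟨r, hPC r hrP⟩, (hmemP _).mpr ⟨_, hrP, rfl⟩, ?_⟩
    intro hh
    rw [← map_mul, ← map_mul] at hh
    rcases (hE1 _ _).mp hh with h2 | h2
    · exact hpr h2.symm
    · exact hcommt r hrP p hpP h2
  obtain ⟨cc, hcc⟩ : ∃ cc : ↥C, (cc : G) = c0 := ⟨⟨c0, (hC c0).mpr hc0⟩, rfl⟩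
  have hkey : π (cc * zC * cc⁻¹) = π cc * π zC * (π cc)⁻¹ := by simp only [map_mul, map_inv]
  have hcoe : ((cc * zC * cc⁻¹ : ↥C) : G) = c0 * z * c0⁻¹ := by
    show (cc : G) * (zC : G) * (cc : G)⁻¹ = c0 * z * c0⁻¹
    rw [hcc, hzCdef]
  refine large_of_LX hLXq hXS (π cc) ?_ ?_
  · rw [← hkey]
    exact (hmemP _).mpr ⟨_, by rw [hcoe]; exact hc0P, rfl⟩
  · intro hh
    rw [← hkey] at hh
    rcases (hE1 _ _).mp hh.symm with h2 | h2
    · rw [hcoe, hzCdef] at h2
      exact hc0z h2
    · rw [hcoe, hzCdef] at h2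
      exact hc0zt h2

end Cfsg.Agent.Helper26.XSQuot
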