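import Mathlib
import Cfsg.Prelude.Def_ClassificationK
import Cfsg.Agent.Helper26.XSQuot

/-!
helper26: 2-groups of symplectic type and exponent dividing 4.
`main`: if every characteristic abelian subgroup of the finite 2-group `T` is cyclic, `x ^ 4 = 1`
for all `x`, and `z` is a central involution, then `z` is the only central involution, every
commutator and every square lies in `{1, z}`.
-/

set_option autoImplicit false

namespace Cfsg.Agent.Helper26.Symp

open Cfsg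

theorem cyc_inv {T : Type*} [Group T] [Finite T] (A : Subgroup T) (hA : IsCyclic ↥A) (z : T)
    (hzA : z ∈ A) (hz1 : z ≠ 1) (hzz : z * z = 1) (c : T) (hcA : c ∈ A) (hcc : c * c = 1) :
    c = 1 ∨ c = z := by
  classical
  haveI := Fintype.ofFinite ↥A
  by_contra hcon
  push Not at hcon
  have hle : (Finset.univ.filter (fun a : ↥A => a ^ 2 = 1)).card ≤ 2 :=
    IsCyclic.card_pow_eq_one_le (by norm_num)
  have h1 : (1 : ↥A) ∉ ({⟨z, hzA⟩, ⟨c, hcA⟩} : Finset ↥A) := by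
    simp only [Finset.mem_insert, Finset.mem_singleton]
    rintro (h | h)
    · exact hz1 (congrArg Subtype.val h).symm
    · exact hcon.1 (congrArg Subtype.val h).symm
  have h2 : (⟨z, hzA⟩ : ↥A) ∉ ({⟨c, hcA⟩} : Finset ↥A) := by
    simp only [Finset.mem_singleton]
    intro h
    exact hcon.2 (congrArg Subtype.val h).symm
  have hcard : ({(1 : ↥A), ⟨z, hzA⟩, ⟨c, hcA⟩} : Finset ↥A).card = 3 := by
    rw [Finset.card_insert_of_notMem h1, Finset.card_insert_of_notMem h2, Finset.card_singleton]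
  have hsub : ({(1 : ↥A), ⟨z, hzA⟩, ⟨c, hcA⟩} : Finset ↥A) ⊆
      Finset.univ.filter (fun a : ↥A => a ^ 2 = 1) := by
    intro a ha
    simp only [Finset.mem_insert, Finset.mem_singleton] at ha
    simp only [Finset.mem_filter, Finset.mem_univ, true_and]
    rcases ha with rfl | rfl | rfl
    · exact one_pow 2
    · apply Subtype.ext
      show z ^ 2 = 1
      rw [pow_two]; exact hzz
    · apply Subtype.ext
      show c ^ 2 = 1
      rw [pow_two]; exact hcc
  have := Finset.card_le_card hsub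
  omega

theorem zconj {T : Type*} [Group T] {z : T} (hzc : ∀ y : T, y * z = z * y) {ε : T}
    (hε : ε ∈ Subgroup.zpowers z) (k : T) : k * ε * k⁻¹ = ε := by
  have h1 : Subgroup.zpowers z ≤ Subgroup.centralizer ({k} : Set T) := by
    rw [Subgroup.zpowers_le, Subgroup.mem_centralizer_iff]
    intro h hh
    rw [Set.mem_singleton_iff] at hh
    rw [hh]; exact hzc k
  have h2 := Subgroup.mem_centralizer_iff.mp (h1 hε) k (Set.mem_singleton k)
  rw [h2]; group

/-- The elements of `T` that are central modulo `⟨z⟩`. -/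
def kSub {T : Type*} [Group T] (z : T) (hzc : ∀ y : T, y * z = z * y) : Subgroup T where
  carrier := {k | ∀ y : T, k * y * k⁻¹ * y⁻¹ ∈ Subgroup.zpowers z}
  one_mem' := by
    intro y
    have e : (1 : T) * y * 1⁻¹ * y⁻¹ = 1 := by group
    rw [e]; exact Subgroup.one_mem _
  mul_mem' := by
    intro k k' hk hk' y
    have e : (k * k') * y * (k * k')⁻¹ * y⁻¹ =
        k * (k' * y * k'⁻¹ * y⁻¹) * k⁻¹ * (k * y * k⁻¹ * y⁻¹) := by group
    rw [e, zconj hzc (hk' y) k]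
    exact Subgroup.mul_mem _ (hk' y) (hk y)
  inv_mem' := by
    intro k hk y
    have e : k⁻¹ * y * k⁻¹⁻¹ * y⁻¹ = k⁻¹ * (k * y * k⁻¹ * y⁻¹)⁻¹ * k⁻¹⁻¹ := by group
    rw [e, zconj hzc (Subgroup.inv_mem _ (hk y)) k⁻¹]
    exact Subgroup.inv_mem _ (hk y)

theorem mem_kSub {T : Type*} [Group T] (z : T) (hzc : ∀ y : T, y * z = z * y) (k : T) :
    k ∈ kSub z hzc ↔ ∀ y : T, k * y * k⁻¹ * y⁻¹ ∈ Subgroup.zpowers z := Iff.rfl

theorem kSub_char {T : Type*} [Group T] (z : T) (hzc : ∀ y : T, y * z = z * y)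
    (hfix : ∀ φ : T ≃* T, φ z = z) : (kSub z hzc).Characteristic := by
  rw [Subgroup.characteristic_iff_map_le]
  intro φ
  rintro _ ⟨k, hk, rfl⟩
  have hk' : ∀ y : T, k * y * k⁻¹ * y⁻¹ ∈ Subgroup.zpowers z := hk
  rw [mem_kSub]
  intro y
  have h1 := hk' (φ.symm y)
  have e : φ.toMonoidHom k * y * (φ.toMonoidHom k)⁻¹ * y⁻¹ =
      φ (k * φ.symm y * k⁻¹ * (φ.symm y)⁻¹) := by
    simp
  rw [e]
  obtain ⟨n, hn⟩ := Subgroup.mem_zpowers_iff.mp h1
  rw [← hn, map_zpow, hfix]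
  exact Subgroup.zpow_mem_zpowers z n

theorem main {T : Type*} [Group T] [Finite T] (hT : Cfsg.IsOfSymplecticType T)
    (h4 : ∀ x : T, x ^ 4 = 1) (z : T) (hzc : ∀ y : T, y * z = z * y) (hz1 : z ≠ 1)
    (hzz : z * z = 1) :
    (∀ c : T, (∀ y : T, y * c = c * y) → c * c = 1 → c = 1 ∨ c = z) ∧
    (∀ x y : T, x * y * x⁻¹ * y⁻¹ = 1 ∨ x * y * x⁻¹ * y⁻¹ = z) ∧
    (∀ x : T, x * x = 1 ∨ x * x = z) := by
  classical
  have hcen : IsCyclic ↥(Subgroup.center T) :=
    hT.2 (Subgroup.center T) inferInstance inferInstance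
  have s1 : ∀ c : T, (∀ y : T, y * c = c * y) → c * c = 1 → c = 1 ∨ c = z := by
    intro c hc hcc
    exact cyc_inv (Subgroup.center T) hcen z (Subgroup.mem_center_iff.mpr hzc) hz1 hzz c
      (Subgroup.mem_center_iff.mpr hc) hcc
  have hfix : ∀ φ : T ≃* T, φ z = z := by
    intro φ
    have h1 : ∀ y : T, y * φ z = φ z * y := by
      intro y
      have := congrArg φ (hzc (φ.symm y))
      simpa using this
    have h2 : φ z * φ z = 1 := by rw [← map_mul, hzz, map_one]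
    rcases s1 (φ z) h1 h2 with h | h
    · exfalso; apply hz1
      have : φ z = φ 1 := by rw [h, map_one]
      exact φ.injective this
    · exact h
  haveI hKc : (kSub z hzc).Characteristic := kSub_char z hzc hfix
  obtain ⟨D, hD⟩ : ∃ D : Subgroup T,
      D = Subgroup.centralizer ((kSub z hzc : Subgroup T) : Set T) := ⟨_, rfl⟩
  obtain ⟨M, hM⟩ : ∃ M : Subgroup T,
      M = Subgroup.centralizer ((kSub z hzc : Subgroup T) : Set T) ⊓
        Subgroup.centralizer ((Subgroup.centralizer ((kSub z hzc : Subgroup T) : Set T) :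
          Subgroup T) : Set T) := ⟨_, rfl⟩
  have hMchar : M.Characteristic := by rw [hM]; infer_instance
  have hMmem : ∀ m : T, m ∈ M → m ∈ Subgroup.centralizer ((kSub z hzc : Subgroup T) : Set T) ⊓
        Subgroup.centralizer ((Subgroup.centralizer ((kSub z hzc : Subgroup T) : Set T) :
          Subgroup T) : Set T) := by
    intro m hm; rw [hM] at hm; exact hm
  have hMcomm : IsMulCommutative ↥M := by
    refine ⟨⟨fun a b => Subtype.ext ?_⟩⟩
    have ha := hMmem a a.2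
    have hb := hMmem b b.2
    exact (Subgroup.mem_centralizer_iff.mp (Subgroup.mem_inf.mp hb).2 a (Subgroup.mem_inf.mp ha).1)
  have hMcyc : IsCyclic ↥M := hT.2 M hMchar hMcomm
  have hMcD : ∀ m ∈ M, ∀ d ∈ D, d * m = m * d := by
    intro m hm d hd
    rw [hM] at hm; rw [hD] at hd
    exact Subgroup.mem_centralizer_iff.mp (Subgroup.mem_inf.mp hm).2 d hd
  have hDK : ∀ d ∈ D, ∀ k ∈ kSub z hzc, k * d = d * k := by
    intro d hd k hk; rw [hD] at hd
    exact Subgroup.mem_centralizer_iff.mp hd k hk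
  have hKDM : ∀ d ∈ D, d ∈ kSub z hzc → d ∈ M := by
    intro d hd hdK
    rw [hM]
    refine Subgroup.mem_inf.mpr ⟨by rw [← hD]; exact hd, ?_⟩
    rw [Subgroup.mem_centralizer_iff]
    intro d' hd'
    rw [← hD] at hd'
    exact (hDK d' hd' d hdK).symm
  have hzM : z ∈ M := by
    rw [hM]
    refine Subgroup.mem_inf.mpr ⟨?_, ?_⟩
    · rw [Subgroup.mem_centralizer_iff]; intro h _; exact hzc h
    · rw [Subgroup.mem_centralizer_iff]; intro h _; exact hzc h
  have m1 : ∀ c ∈ M, c * c = 1 → c = 1 ∨ c = z :=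
    fun c hc hcc => cyc_inv M hMcyc z hzM hz1 hzz c hc hcc
  have hZ2 : ∀ ε ∈ Subgroup.zpowers z, ε * ε = 1 := by
    intro ε hε
    rcases (Cfsg.Agent.Helper26.XSQuot.mem_zpowers_two hzz).mp hε with h | h
    · rw [h, mul_one]
    · rw [h]; exact hzz
  have hsqD : ∀ x : T, x * x ∈ D := by
    intro x
    rw [hD, Subgroup.mem_centralizer_iff]
    intro k hk
    have h1 := (mem_kSub z hzc k).mp hk x
    have h2 := hZ2 _ h1
    have h3 := zconj hzc h1 x
    calc k * (x * x) = (k * x * k⁻¹ * x⁻¹) * (x * (k * x * k⁻¹ * x⁻¹) * x⁻¹) * (x * x) * k := by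
          group
      _ = (k * x * k⁻¹ * x⁻¹) * (k * x * k⁻¹ * x⁻¹) * (x * x) * k := by rw [h3]
      _ = (x * x) * k := by rw [h2, one_mul]
  have hcommD : ∀ x y : T, x * y * x⁻¹ * y⁻¹ ∈ D := by
    intro x y
    rw [hD, Subgroup.mem_centralizer_iff]
    intro k hk
    obtain ⟨ex, hex⟩ : ∃ ex : T, ex = k * x * k⁻¹ * x⁻¹ := ⟨_, rfl⟩
    obtain ⟨ey, hey⟩ : ∃ ey : T, ey = k * y * k⁻¹ * y⁻¹ := ⟨_, rfl⟩
    have hexZ : ex ∈ Subgroup.zpowers z := by rw [hex]; exact (mem_kSub z hzc k).mp hk x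
    have heyZ : ey ∈ Subgroup.zpowers z := by rw [hey]; exact (mem_kSub z hzc k).mp hk y
    have e : k * (x * y * x⁻¹ * y⁻¹) = ex * (x * ey * x⁻¹) *
        ((x * y * x⁻¹) * ex⁻¹ * (x * y * x⁻¹)⁻¹) *
        ((x * y * x⁻¹ * y⁻¹) * ey⁻¹ * (x * y * x⁻¹ * y⁻¹)⁻¹) * (x * y * x⁻¹ * y⁻¹) * k := by
      rw [hex, hey]; group
    rw [e, zconj hzc heyZ x, zconj hzc (Subgroup.inv_mem _ hexZ) (x * y * x⁻¹),
      zconj hzc (Subgroup.inv_mem _ heyZ) (x * y * x⁻¹ * y⁻¹)]
    have e2 : ex * ey * ex⁻¹ * ey⁻¹ = 1 := by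
      rw [zconj hzc heyZ ex]; group
    rw [e2, one_mul]
  have hDn : ∀ d ∈ D, ∀ y : T, y * d * y⁻¹ ∈ D := by
    have hn : D.Normal := by rw [hD]; infer_instance
    intro d hd y; exact hn.conj_mem d hd y
  have h4' : ∀ x : T, (x * x) * (x * x) = 1 := by
    intro x
    have h : x ^ 4 = (x * x) * (x * x) := by simp [pow_succ, mul_assoc]
    rw [← h]; exact h4 x
  have hMsq : ∀ c ∈ M, c * c = 1 ∨ c * c = z :=
    fun c hc => m1 (c * c) (M.mul_mem hc hc) (h4' c)
  have m2 : ∀ d ∈ D, d ∈ M := by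
    by_contra hcon
    push Not at hcon
    obtain ⟨d₀, hd₀D, hd₀M⟩ := hcon
    haveI : Fact (Nat.Prime 2) := ⟨Nat.prime_two⟩
    obtain ⟨n₀, hn₀⟩ := (hT.1.isNilpotent).nilpotent'
    have hP : ∃ n : ℕ, ∃ d ∈ D, d ∈ Subgroup.upperCentralSeries T n ∧ d ∉ M :=
      ⟨n₀, d₀, hd₀D, by rw [hn₀]; exact Subgroup.mem_top _, hd₀M⟩
    obtain ⟨d, hdD, hdn, hdM⟩ := Nat.find_spec hP
    have hmin := fun m (hm : m < Nat.find hP) => Nat.find_min hP hm
    rcases Nat.eq_zero_or_pos (Nat.find hP) with h0 | hpos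
    · rw [h0, Subgroup.upperCentralSeries_zero, Subgroup.mem_bot] at hdn
      apply hdM; rw [hdn]; exact Subgroup.one_mem _
    obtain ⟨m, hm⟩ : ∃ m, Nat.find hP = m + 1 := ⟨Nat.find hP - 1, by omega⟩
    rw [hm] at hdn
    have hcM : ∀ y : T, d * y * d⁻¹ * y⁻¹ ∈ M := by
      intro y
      by_contra hnot
      apply hmin m (by omega)
      refine ⟨d * y * d⁻¹ * y⁻¹, ?_, ?_, hnot⟩
      · have h1 := hDn d⁻¹ (D.inv_mem hdD) y
        have e : d * y * d⁻¹ * y⁻¹ = d * (y * d⁻¹ * y⁻¹) := by group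
        rw [e]; exact D.mul_mem hdD h1
      · exact (Subgroup.mem_upperCentralSeries_succ_iff.mp hdn) y
    have hdc : ∀ c ∈ M, d * c = c * d := fun c hc => hMcD c hc d hdD
    have hform : ∀ y : T, (d * d) * y * (d * d)⁻¹ * y⁻¹ =
        (d * y * d⁻¹ * y⁻¹) * (d * y * d⁻¹ * y⁻¹) := by
      intro y
      have h1 := hdc _ (hcM y)
      calc (d * d) * y * (d * d)⁻¹ * y⁻¹
          = (d * (d * y * d⁻¹ * y⁻¹)) * d⁻¹ * (d * y * d⁻¹ * y⁻¹) := by group
        _ = ((d * y * d⁻¹ * y⁻¹) * d) * d⁻¹ * (d * y * d⁻¹ * y⁻¹) := by rw [h1]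
        _ = (d * y * d⁻¹ * y⁻¹) * (d * y * d⁻¹ * y⁻¹) := by group
    have hddM : d * d ∈ M := by
      apply hKDM (d * d) (D.mul_mem hdD hdD)
      rw [mem_kSub]
      intro y
      rw [hform y]
      rcases hMsq _ (hcM y) with h | h
      · rw [h]; exact Subgroup.one_mem _
      · rw [h]; exact Subgroup.mem_zpowers z
    have hdd : d * d = 1 ∨ d * d = z := m1 (d * d) hddM (h4' d)
    have hddc : ∀ y : T, (d * d) * y * (d * d)⁻¹ * y⁻¹ = 1 := by
      intro y
      rcases hdd with h | h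
      · rw [h]; group
      · rw [h, ← hzc y]; group
    apply hdM
    apply hKDM d hdD
    rw [mem_kSub]
    intro y
    have h1 : (d * y * d⁻¹ * y⁻¹) * (d * y * d⁻¹ * y⁻¹) = 1 := by
      rw [← hform y]; exact hddc y
    rcases m1 _ (hcM y) h1 with h | h
    · rw [h]; exact Subgroup.one_mem _
    · rw [h]; exact Subgroup.mem_zpowers z
  have s3 : ∀ x : T, x * x = 1 ∨ x * x = z :=
    fun x => m1 (x * x) (m2 _ (hsqD x)) (h4' x)
  have hsqc : ∀ x y : T, (x * x) * y = y * (x * x) := by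
    intro x y
    rcases s3 x with h | h
    · rw [h, one_mul, mul_one]
    · rw [h]; exact (hzc y).symm
  refine ⟨s1, ?_, s3⟩
  intro x y
  apply m1 _ (m2 _ (hcommD x y))
  obtain ⟨c, hc⟩ : ∃ c : T, c = x * y * x⁻¹ * y⁻¹ := ⟨_, rfl⟩
  rw [← hc]
  have e1 : x * c * x⁻¹ * c = 1 := by
    have : x * c * x⁻¹ * c = (x * x * y) * (y * (x * x))⁻¹ := by rw [hc]; group
    rw [this, hsqc x y]; group
  have e2 : c * (y * c * y⁻¹) = 1 := by
    have : c * (y * c * y⁻¹) = (x * (y * y)) * ((y * y) * x)⁻¹ := by rw [hc]; group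
    rw [this, hsqc y x]; group
  have hx : x * c * x⁻¹ = c⁻¹ := eq_inv_of_mul_eq_one_left e1
  have hy : y * c * y⁻¹ = c⁻¹ := eq_inv_of_mul_eq_one_right e2
  have hw : (x * y) * c * (x * y)⁻¹ = c := by
    calc (x * y) * c * (x * y)⁻¹ = x * (y * c * y⁻¹) * x⁻¹ := by group
      _ = x * c⁻¹ * x⁻¹ := by rw [hy]
      _ = (x * c * x⁻¹)⁻¹ := by group
      _ = c := by rw [hx, inv_inv]
  have e3 : ((x * y) * c * (x * y)⁻¹) * c =
      (((x * y) * (x * y)) * x⁻¹) * (x⁻¹ * ((x * y) * (x * y)))⁻¹ := by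
    rw [hc]; group
  rw [hw] at e3
  rw [e3, hsqc (x * y) x⁻¹]; group

end Cfsg.Agent.Helper26.Symp
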