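import Mathlib
import Cfsg.Prelude.Def_GeometricClasses
import Cfsg.Agent.Lead.S5998p1

set_option autoImplicit false
open scoped MatrixGroups
open Matrix

namespace Cfsg.Agent.Helper26.U3A1

/-- group-level normal form `z^i a^j b^k` in `⟨a, b⟩` when `b a = z a b` with `z` central. -/
theorem normal_form {G : Type*} [Group G] (a b z : G) (hba : b * a = z * (a * b))
    (hza : z * a = a * z) (hzb : z * b = b * z) (ha3 : a ^ 3 = 1) (hb3 : b ^ 3 = 1)
    (hz3 : z ^ 3 = 1) (y : G) (hy : y ∈ Subgroup.closure ({a, b} : Set G)) :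
    ∃ i j k : ℕ, y = z ^ i * (a ^ j * b ^ k) := by
  have cza : Commute z a := hza
  have czb : Commute z b := hzb
  have h1 : ∀ j : ℕ, b * a ^ j = z ^ j * (a ^ j * b) := by
    intro j
    induction j with
    | zero => simp
    | succ j ih =>
      have e : Commute (a ^ j) z := (cza.pow_right j).symm
      calc b * a ^ (j + 1) = (b * a ^ j) * a := by rw [pow_succ, mul_assoc]
        _ = z ^ j * (a ^ j * b) * a := by rw [ih]
        _ = z ^ j * (a ^ j * (b * a)) := by simp only [mul_assoc]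
        _ = z ^ j * (a ^ j * (z * (a * b))) := by rw [hba]
        _ = z ^ j * ((a ^ j * z) * (a * b)) := by simp only [mul_assoc]
        _ = z ^ j * ((z * a ^ j) * (a * b)) := by rw [e.eq]
        _ = z ^ (j + 1) * (a ^ (j + 1) * b) := by
          rw [pow_succ, pow_succ]; simp only [mul_assoc]
  have h2 : ∀ k j : ℕ, b ^ k * a ^ j = z ^ (k * j) * (a ^ j * b ^ k) := by
    intro k j
    induction k with
    | zero => simp
    | succ k ih =>
      have e : Commute (b ^ k) (z ^ j) := ((czb.pow_left j).pow_right k).symm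
      calc b ^ (k + 1) * a ^ j = b ^ k * (b * a ^ j) := by rw [pow_succ, mul_assoc]
        _ = b ^ k * (z ^ j * (a ^ j * b)) := by rw [h1]
        _ = (b ^ k * z ^ j) * (a ^ j * b) := by rw [mul_assoc]
        _ = (z ^ j * b ^ k) * (a ^ j * b) := by rw [e.eq]
        _ = z ^ j * ((b ^ k * a ^ j) * b) := by simp only [mul_assoc]
        _ = z ^ j * ((z ^ (k * j) * (a ^ j * b ^ k)) * b) := by rw [ih]
        _ = z ^ ((k + 1) * j) * (a ^ j * b ^ (k + 1)) := by
          rw [add_mul, one_mul, add_comm (k * j) j, pow_add, pow_succ b k]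
          simp only [mul_assoc]
  have hmul : ∀ x y : G, (∃ i j k : ℕ, x = z ^ i * (a ^ j * b ^ k)) →
      (∃ i j k : ℕ, y = z ^ i * (a ^ j * b ^ k)) →
      ∃ i j k : ℕ, x * y = z ^ i * (a ^ j * b ^ k) := by
    rintro x y ⟨i, j, k, rfl⟩ ⟨i', j', k', rfl⟩
    refine ⟨i + i' + k * j', j + j', k + k', ?_⟩
    have e1 : Commute (a ^ j) (z ^ i') := ((cza.pow_left i').pow_right j).symm
    have e2 : Commute (b ^ k) (z ^ i') := ((czb.pow_left i').pow_right k).symm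
    have e3 : Commute (a ^ j) (z ^ (k * j')) := ((cza.pow_left _).pow_right j).symm
    calc z ^ i * (a ^ j * b ^ k) * (z ^ i' * (a ^ j' * b ^ k'))
        = z ^ i * (a ^ j * (b ^ k * z ^ i') * (a ^ j' * b ^ k')) := by simp only [mul_assoc]
      _ = z ^ i * (a ^ j * (z ^ i' * b ^ k) * (a ^ j' * b ^ k')) := by rw [e2.eq]
      _ = z ^ i * ((a ^ j * z ^ i') * (b ^ k * a ^ j') * b ^ k') := by simp only [mul_assoc]
      _ = z ^ i * ((z ^ i' * a ^ j) * (z ^ (k * j') * (a ^ j' * b ^ k)) * b ^ k') := by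
        rw [e1.eq, h2]
      _ = z ^ i * (z ^ i' * ((a ^ j * z ^ (k * j')) * (a ^ j' * b ^ k)) * b ^ k') := by
        simp only [mul_assoc]
      _ = z ^ i * (z ^ i' * ((z ^ (k * j') * a ^ j) * (a ^ j' * b ^ k)) * b ^ k') := by
        rw [e3.eq]
      _ = z ^ (i + i' + k * j') * (a ^ (j + j') * b ^ (k + k')) := by
        rw [pow_add, pow_add, pow_add, pow_add]; simp only [mul_assoc]
  have hone : ∃ i j k : ℕ, (1 : G) = z ^ i * (a ^ j * b ^ k) := ⟨0, 0, 0, by simp⟩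
  have hA : ∃ i j k : ℕ, a = z ^ i * (a ^ j * b ^ k) := ⟨0, 1, 0, by simp⟩
  have hB : ∃ i j k : ℕ, b = z ^ i * (a ^ j * b ^ k) := ⟨0, 0, 1, by simp⟩
  have hinv : ∀ x : G, (∃ i j k : ℕ, x = z ^ i * (a ^ j * b ^ k)) →
      ∃ i j k : ℕ, x⁻¹ = z ^ i * (a ^ j * b ^ k) := by
    rintro x ⟨i, j, k, rfl⟩
    have ib : (b ^ k)⁻¹ = b ^ (2 * k) := inv_eq_of_mul_eq_one_right (by
      rw [← pow_add, show k + 2 * k = 3 * k by ring, pow_mul, hb3, one_pow])
    have ia : (a ^ j)⁻¹ = a ^ (2 * j) := inv_eq_of_mul_eq_one_right (by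
      rw [← pow_add, show j + 2 * j = 3 * j by ring, pow_mul, ha3, one_pow])
    have iz : (z ^ i)⁻¹ = z ^ (2 * i) := inv_eq_of_mul_eq_one_right (by
      rw [← pow_add, show i + 2 * i = 3 * i by ring, pow_mul, hz3, one_pow])
    rw [_root_.mul_inv_rev, _root_.mul_inv_rev, ib, ia, iz]
    exact hmul _ _ (hmul _ _ ⟨0, 0, 2 * k, by simp⟩ ⟨0, 2 * j, 0, by simp⟩) ⟨2 * i, 0, 0, by simp⟩
  refine Subgroup.closure_induction (p := fun y _ => ∃ i j k : ℕ, y = z ^ i * (a ^ j * b ^ k))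
    ?_ hone (fun x y _ _ hx hy => hmul x y hx hy) (fun x _ hx => hinv x hx) hy
  intro x hx
  rcases hx with rfl | hx
  · exact hA
  · rw [Set.mem_singleton_iff] at hx
    rw [hx]
    exact hB

theorem pres {F : Type*} [Field F] (M C : Matrix (Fin 3) (Fin 3) F) (lam : F)
    (h : M * C = C * M) (x : Fin 3 → F) (hx : M *ᵥ x = lam • x) :
    M *ᵥ (C *ᵥ x) = lam • (C *ᵥ x) := by
  rw [Matrix.mulVec_mulVec, h, ← Matrix.mulVec_mulVec, hx, Matrix.mulVec_smul]

theorem scalar_of {F : Type*} [Field F] (ω0 : F) (hω0 : ω0 ≠ 1) (hω03 : ω0 ^ 3 = 1)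
    (A B A' B' M : Matrix (Fin 3) (Fin 3) F)
    (hAA' : A * A' = 1) (hBB' : B * B' = 1)
    (hM1 : M ≠ 1) (hBA : B * A = M * (A * B)) (hMA : M * A = A * M) (hMB : M * B = B * M)
    (hMA' : M * A' = A' * M) (hMB' : M * B' = B' * M)
    (hM3 : M ^ 3 = 1) :
    ∃ ω : F, ω ≠ 1 ∧ ω ^ 3 = 1 ∧ M = ω • (1 : Matrix (Fin 3) (Fin 3) F) := by
  classical
  have hs : ω0 ^ 2 + ω0 + 1 = 0 := by
    have h : (ω0 - 1) * (ω0 ^ 2 + ω0 + 1) = 0 := by linear_combination hω03
    rcases mul_eq_zero.mp h with h | h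
    · exact absurd (sub_eq_zero.mp h) hω0
    · exact h
  have hM3' : M * (M * M) = 1 := by rw [← hM3, pow_succ, pow_two, mul_assoc]
  obtain ⟨lam, hlam1, hlam3, w, hw0, hw⟩ : ∃ lam : F, lam ≠ 1 ∧ lam ^ 3 = 1 ∧
      ∃ w : Fin 3 → F, w ≠ 0 ∧ M *ᵥ w = lam • w := by
    obtain ⟨v, hv⟩ : ∃ v : Fin 3 → F, M *ᵥ v ≠ v := by
      by_contra hcon
      push Not at hcon
      apply hM1
      apply Matrix.toLin'.injective
      apply LinearMap.ext
      intro v
      rw [Matrix.toLin'_apply, Matrix.toLin'_apply, hcon v, Matrix.one_mulVec]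
    have h3 : M *ᵥ (M *ᵥ (M *ᵥ v)) = v := by
      calc M *ᵥ (M *ᵥ (M *ᵥ v)) = (M * (M * M)) *ᵥ v := by
            rw [← Matrix.mulVec_mulVec, ← Matrix.mulVec_mulVec]
        _ = v := by rw [hM3', Matrix.one_mulVec]
    obtain ⟨v1, hv1⟩ : ∃ v1, v1 = M *ᵥ v := ⟨_, rfl⟩
    obtain ⟨v2, hv2⟩ : ∃ v2, v2 = M *ᵥ v1 := ⟨_, rfl⟩
    have h3' : M *ᵥ v2 = v := by rw [hv2, hv1]; exact h3
    have hu : v1 - v ≠ 0 := by rw [hv1]; exact sub_ne_zero.mpr hv
    have hMu : M *ᵥ (v1 - v) = v2 - v1 := by rw [Matrix.mulVec_sub, ← hv2, ← hv1]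
    have hMw : M *ᵥ ((v2 - v1) - ω0 ^ 2 • (v1 - v)) =
        ω0 • ((v2 - v1) - ω0 ^ 2 • (v1 - v)) := by
      rw [Matrix.mulVec_sub, Matrix.mulVec_smul, hMu, Matrix.mulVec_sub, h3', ← hv2]
      ext i
      simp only [Pi.sub_apply, Pi.smul_apply, smul_eq_mul]
      linear_combination (v1 i - v2 i) * hs + (v1 i - v i) * hω03
    by_cases hw : (v2 - v1) - ω0 ^ 2 • (v1 - v) = 0
    · refine ⟨ω0 ^ 2, ?_, ?_, v1 - v, hu, ?_⟩
      · intro h1
        apply hω0
        linear_combination (ω0 - 1) * hs - ω0 * h1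
      · rw [← pow_mul, mul_comm, pow_mul, hω03, one_pow]
      · rw [hMu]
        exact sub_eq_zero.mp hw
    · exact ⟨ω0, hω0, hω03, _, hw, hMw⟩
  obtain ⟨W, hW⟩ : ∃ W : Submodule F (Fin 3 → F), ∀ x, x ∈ W ↔ M *ᵥ x = lam • x :=
    ⟨Module.End.eigenspace (Matrix.toLin' M) lam, fun x => by
      rw [Module.End.mem_eigenspace_iff, Matrix.toLin'_apply]⟩
  have hA : ∀ x ∈ W, Matrix.toLin' A x ∈ W := fun x hx => by
    rw [hW] at hx ⊢; rw [Matrix.toLin'_apply]; exact pres M A lam hMA x hx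
  have hB : ∀ x ∈ W, Matrix.toLin' B x ∈ W := fun x hx => by
    rw [hW] at hx ⊢; rw [Matrix.toLin'_apply]; exact pres M B lam hMB x hx
  have hA' : ∀ x ∈ W, Matrix.toLin' A' x ∈ W := fun x hx => by
    rw [hW] at hx ⊢; rw [Matrix.toLin'_apply]; exact pres M A' lam hMA' x hx
  have hB' : ∀ x ∈ W, Matrix.toLin' B' x ∈ W := fun x hx => by
    rw [hW] at hx ⊢; rw [Matrix.toLin'_apply]; exact pres M B' lam hMB' x hx
  obtain ⟨fa, hfa⟩ : ∃ fa : W →ₗ[F] W, ∀ x : W, (fa x : Fin 3 → F) = A *ᵥ (x : Fin 3 → F) :=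
    ⟨(Matrix.toLin' A).restrict hA, fun x => by
      rw [LinearMap.coe_restrict_apply, Matrix.toLin'_apply]⟩
  obtain ⟨fb, hfb⟩ : ∃ fb : W →ₗ[F] W, ∀ x : W, (fb x : Fin 3 → F) = B *ᵥ (x : Fin 3 → F) :=
    ⟨(Matrix.toLin' B).restrict hB, fun x => by
      rw [LinearMap.coe_restrict_apply, Matrix.toLin'_apply]⟩
  obtain ⟨fa', hfa'⟩ : ∃ fa' : W →ₗ[F] W, ∀ x : W,
      (fa' x : Fin 3 → F) = A' *ᵥ (x : Fin 3 → F) :=
    ⟨(Matrix.toLin' A').restrict hA', fun x => by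
      rw [LinearMap.coe_restrict_apply, Matrix.toLin'_apply]⟩
  obtain ⟨fb', hfb'⟩ : ∃ fb' : W →ₗ[F] W, ∀ x : W,
      (fb' x : Fin 3 → F) = B' *ᵥ (x : Fin 3 → F) :=
    ⟨(Matrix.toLin' B').restrict hB', fun x => by
      rw [LinearMap.coe_restrict_apply, Matrix.toLin'_apply]⟩
  have e1 : fa ∘ₗ fa' = LinearMap.id := by
    apply LinearMap.ext
    intro x
    apply Subtype.ext
    rw [LinearMap.comp_apply, hfa, hfa', Matrix.mulVec_mulVec, hAA', Matrix.one_mulVec]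
    rfl
  have e2 : fb ∘ₗ fb' = LinearMap.id := by
    apply LinearMap.ext
    intro x
    apply Subtype.ext
    rw [LinearMap.comp_apply, hfb, hfb', Matrix.mulVec_mulVec, hBB', Matrix.one_mulVec]
    rfl
  have e3 : fb ∘ₗ fa = lam • (fa ∘ₗ fb) := by
    apply LinearMap.ext
    intro x
    apply Subtype.ext
    have hx : A *ᵥ (B *ᵥ (x : Fin 3 → F)) ∈ W := by
      have h := (fa (fb x)).2
      rw [hfa, hfb] at h
      exact h
    have h1 : B *ᵥ (A *ᵥ (x : Fin 3 → F)) = M *ᵥ (A *ᵥ (B *ᵥ (x : Fin 3 → F))) := by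
      rw [Matrix.mulVec_mulVec _ B A, hBA, ← Matrix.mulVec_mulVec, ← Matrix.mulVec_mulVec]
    rw [LinearMap.comp_apply, hfb, hfa, LinearMap.smul_apply, Submodule.coe_smul,
      LinearMap.comp_apply, hfa, hfb, h1]
    exact (hW _).mp hx
  have d1 : LinearMap.det fa * LinearMap.det fa' = 1 := by
    rw [← LinearMap.det_comp, e1, LinearMap.det_id]
  have d2 : LinearMap.det fb * LinearMap.det fb' = 1 := by
    rw [← LinearMap.det_comp, e2, LinearMap.det_id]
  have da : LinearMap.det fa ≠ 0 := left_ne_zero_of_mul_eq_one d1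
  have db : LinearMap.det fb ≠ 0 := left_ne_zero_of_mul_eq_one d2
  have d3 : LinearMap.det fb * LinearMap.det fa =
      lam ^ Module.finrank F W * (LinearMap.det fa * LinearMap.det fb) := by
    rw [← LinearMap.det_comp, e3, LinearMap.det_smul, LinearMap.det_comp]
  have hpow : lam ^ Module.finrank F W = 1 := by
    have h : (lam ^ Module.finrank F W - 1) * (LinearMap.det fa * LinearMap.det fb) = 0 := by
      linear_combination -d3
    rcases mul_eq_zero.mp h with h | h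
    · exact sub_eq_zero.mp h
    · exact absurd h (mul_ne_zero da db)
  have hn3 : Module.finrank F W ≤ 3 := by
    have h := Submodule.finrank_le W
    rwa [Module.finrank_fin_fun] at h
  have hn0 : 0 < Module.finrank F W := by
    rw [Module.finrank_pos_iff_exists_ne_zero]
    exact ⟨⟨w, (hW w).mpr hw⟩, fun h => hw0 (congrArg Subtype.val h)⟩
  have hn : Module.finrank F W = 3 := by
    obtain ⟨n, hn⟩ : ∃ n, n = Module.finrank F W := ⟨_, rfl⟩
    rw [← hn] at hpow hn3 hn0 ⊢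
    interval_cases n
    · exact absurd (by simpa using hpow) hlam1
    · exfalso
      apply hlam1
      have h : lam ^ 3 = lam ^ 2 * lam := by ring
      rw [hlam3, hpow, one_mul] at h
      exact h.symm
    · rfl
  have hWtop : W = ⊤ := by
    apply Submodule.eq_top_of_finrank_eq
    rw [hn, Module.finrank_fin_fun]
  refine ⟨lam, hlam1, hlam3, ?_⟩
  apply Matrix.toLin'.injective
  apply LinearMap.ext
  intro v
  have hv : v ∈ W := by rw [hWtop]; exact Submodule.mem_top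
  rw [Matrix.toLin'_apply, (hW v).mp hv, Matrix.toLin'_apply, Matrix.smul_mulVec,
    Matrix.one_mulVec]

variable {F : Type*} [Field F] [Fintype F] {p : ℕ} [Fact p.Prime] [CharP F p]

theorem gens (hF : Fintype.card F = p ^ 2) (hp3 : p % 3 = 2) (R : Subgroup (GL (Fin 3) F)) (hR : Nat.card R = 27) (hRe : Monoid.exponent R = 3) (hRna : ¬ IsMulCommutative R) : ∃ (a b : GL (Fin 3) F) (ω : F), a ∈ R ∧ b ∈ R ∧ ω ≠ 1 ∧ ω ^ 3 = 1 ∧ a ^ 3 = 1 ∧ b ^ 3 = 1 ∧ ((b * a : GL (Fin 3) F) : Matrix (Fin 3) (Fin 3) F) = ω • ((a * b : GL (Fin 3) F) : Matrix (Fin 3) (Fin 3) F) ∧ ∀ y ∈ R, ∃ i j k : ℕ, (y : Matrix (Fin 3) (Fin 3) F) = ω ^ i • ((a ^ j * b ^ k : GL (Fin 3) F) : Matrix (Fin 3) (Fin 3) F) := by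
  classical
  obtain ⟨a0, b0, z, ha0, hb0, hz1, hab, hza, hzb, ha3, hb3, hz3, hRcl⟩ :=
    Cfsg.Agent.Lead.S5998p1.p1 R hR hRe hRna
  obtain ⟨ω0, hω0, hω03⟩ : ∃ ω0 : F, ω0 ≠ 1 ∧ ω0 ^ 3 = 1 := by
    have h3 : 3 ∣ Nat.card Fˣ := by
      rw [Nat.card_units, Nat.card_eq_fintype_card, hF]
      have h1 : p ^ 2 % 3 = 1 := by simp [Nat.pow_mod, hp3]
      have h2 : 0 < p ^ 2 := pow_pos (Fact.out : p.Prime).pos 2
      omega
    have : Fact (Nat.Prime 3) := ⟨Nat.prime_three⟩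
    obtain ⟨u, hu⟩ := exists_prime_orderOf_dvd_card' 3 h3
    refine ⟨(u : F), ?_, ?_⟩
    · intro h
      have h1 : u = 1 := Units.ext h
      rw [h1, orderOf_one] at hu
      norm_num at hu
    · have h := pow_orderOf_eq_one u
      rw [hu] at h
      rw [← Units.val_pow_eq_pow_val, h, Units.val_one]
  have cza : Commute z a0 := hza
  have czb : Commute z b0 := hzb
  obtain ⟨ω, hω1, hω3, hzω⟩ := scalar_of ω0 hω0 hω03
    (b0 : Matrix (Fin 3) (Fin 3) F) (a0 : Matrix (Fin 3) (Fin 3) F)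
    ((b0⁻¹ : GL (Fin 3) F) : Matrix (Fin 3) (Fin 3) F)
    ((a0⁻¹ : GL (Fin 3) F) : Matrix (Fin 3) (Fin 3) F) (z : Matrix (Fin 3) (Fin 3) F)
    (by rw [← Units.val_mul, mul_inv_cancel, Units.val_one])
    (by rw [← Units.val_mul, mul_inv_cancel, Units.val_one])
    (fun h => hz1 (Units.ext h))
    (by simpa only [Units.val_mul] using congrArg Units.val hab)
    (by simpa only [Units.val_mul] using congrArg Units.val hzb)
    (by simpa only [Units.val_mul] using congrArg Units.val hza)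
    (by simpa only [Units.val_mul] using congrArg Units.val czb.inv_right.eq)
    (by simpa only [Units.val_mul] using congrArg Units.val cza.inv_right.eq)
    (by rw [← Units.val_pow_eq_pow_val, hz3, Units.val_one])
  refine ⟨b0, a0, ω, hb0, ha0, hω1, hω3, hb3, ha3, ?_, ?_⟩
  · rw [hab, Units.val_mul, hzω, smul_mul_assoc, one_mul]
  · intro y hy
    rw [hRcl, Set.pair_comm] at hy
    obtain ⟨i, j, k, rfl⟩ := normal_form b0 a0 z hab hzb hza hb3 ha3 hz3 y hy
    refine ⟨i, j, k, ?_⟩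
    rw [Units.val_mul, Units.val_pow_eq_pow_val, hzω, smul_pow, one_pow, smul_mul_assoc,
      one_mul]

end Cfsg.Agent.Helper26.U3A1
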