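import Mathlib
import Cfsg.Prelude.Def_MonsterType
import Cfsg.Agent.Helper26.LargeXS2
import Cfsg.Agent.Helper26.XSQuot

/-!
An involution acting on an extraspecial 2-group (helper26).

`comm_mul_iff`, `mul_comm_iff`, `comm_inv_iff`, `comm_conj_iff`, `comm_zmul_iff`: the commuting
relation on `Q` is "bilinear".  `comm_structure`: for an involution `α` normalizing `Q`, not in
`Q`, the subgroup generated by the commutators `[α, q]` is the centre of
`Q₀ = {q : [α, q] ∈ ⟨z⟩}`.  `conj_of_not_le`: an element of `Q₀` outside `C_Q(α)⟨z⟩` conjugates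
`α` to `α z`.
-/

set_option autoImplicit false

namespace Cfsg.Agent.Helper26.XSInv

open Cfsg Cfsg.Agent.Helper14.XS Cfsg.Agent.Helper26.LargeXS Cfsg.Agent.Helper26.LargeXS2
  Cfsg.Agent.Helper26.Singular Cfsg.Agent.Helper26.XSQuot

variable {G : Type*} [Group G]

theorem comm_mul_iff {Q : Subgroup G} {z : G} (d : Data Q z) {a x y : G} (ha : a ∈ Q)
    (hx : x ∈ Q) (hy : y ∈ Q) :
    (a * (x * y) = (x * y) * a) ↔ ((a * x = x * a) ↔ (a * y = y * a)) := by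
  have h := lam_mul d ha hx hy
  have e1 := comm_eq_one_iff a (x * y)
  have e2 := comm_eq_one_iff a x
  have e3 := comm_eq_one_iff a y
  rw [← e1, ← e2, ← e3]
  by_cases hX : a * x * a⁻¹ * x⁻¹ = 1
  · by_cases hY : a * y * a⁻¹ * y⁻¹ = 1
    · rw [hX, hY, eps_one, mul_one] at h
      exact ⟨fun _ => ⟨fun _ => hY, fun _ => hX⟩, fun _ => eps_eq_one h⟩
    · rw [hX, eps_one, eps_ne hY, one_mul] at h
      constructor
      · intro hP; rw [hP, eps_one] at h; norm_num at h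
      · intro hiff; exact absurd (hiff.mp hX) hY
  · by_cases hY : a * y * a⁻¹ * y⁻¹ = 1
    · rw [hY, eps_one, eps_ne hX, mul_one] at h
      constructor
      · intro hP; rw [hP, eps_one] at h; norm_num at h
      · intro hiff; exact absurd (hiff.mpr hY) hX
    · rw [eps_ne hX, eps_ne hY] at h
      have h' : eps (a * (x * y) * a⁻¹ * (x * y)⁻¹) = 1 := by rw [h]; norm_num
      exact ⟨fun _ => ⟨fun h1 => absurd h1 hX, fun h1 => absurd h1 hY⟩, fun _ => eps_eq_one h'⟩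

theorem mul_comm_iff {Q : Subgroup G} {z : G} (d : Data Q z) {a b x : G} (ha : a ∈ Q)
    (hb : b ∈ Q) (hx : x ∈ Q) :
    ((a * b) * x = x * (a * b)) ↔ ((a * x = x * a) ↔ (b * x = x * b)) := by
  have h := comm_mul_iff d hx ha hb
  constructor
  · intro h1
    have h2 := h.mp h1.symm
    exact ⟨fun h3 => (h2.mp h3.symm).symm, fun h3 => (h2.mpr h3.symm).symm⟩
  · intro h1
    exact (h.mpr ⟨fun h3 => (h1.mp h3.symm).symm, fun h3 => (h1.mpr h3.symm).symm⟩).symm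

theorem comm_inv_iff {a x : G} : (a * x⁻¹ = x⁻¹ * a) ↔ (a * x = x * a) := by
  constructor
  · intro h
    calc a * x = x * (x⁻¹ * a) * x := by group
      _ = x * (a * x⁻¹) * x := by rw [h]
      _ = x * a := by group
  · intro h
    calc a * x⁻¹ = x⁻¹ * (x * a) * x⁻¹ := by group
      _ = x⁻¹ * (a * x) * x⁻¹ := by rw [h]
      _ = x⁻¹ * a := by group

theorem comm_conj_iff (c a x : G) :
    ((c * a * c⁻¹) * (c * x * c⁻¹) = (c * x * c⁻¹) * (c * a * c⁻¹)) ↔ (a * x = x * a) := by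
  constructor
  · intro h
    calc a * x = c⁻¹ * ((c * a * c⁻¹) * (c * x * c⁻¹)) * c := by group
      _ = c⁻¹ * ((c * x * c⁻¹) * (c * a * c⁻¹)) * c := by rw [h]
      _ = x * a := by group
  · intro h
    calc (c * a * c⁻¹) * (c * x * c⁻¹) = c * (a * x) * c⁻¹ := by group
      _ = c * (x * a) * c⁻¹ := by rw [h]
      _ = (c * x * c⁻¹) * (c * a * c⁻¹) := by group

theorem comm_zmul_iff {a x z : G} (hz : a * z = z * a) :
    (a * (z * x) = (z * x) * a) ↔ (a * x = x * a) := by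
  constructor
  · intro h
    have h2 : z * (a * x) = z * (x * a) := by
      calc z * (a * x) = (z * a) * x := by group
        _ = (a * z) * x := by rw [hz]
        _ = a * (z * x) := by group
        _ = (z * x) * a := h
        _ = z * (x * a) := by group
    exact mul_left_cancel h2
  · intro h
    calc a * (z * x) = (a * z) * x := by group
      _ = (z * a) * x := by rw [hz]
      _ = z * (a * x) := by group
      _ = z * (x * a) := by rw [h]
      _ = (z * x) * a := by group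

/-- For an involution `α` normalizing `Q` and not in `Q`: `[Q, α] = Z(Q₀)`. -/
theorem comm_structure [Finite G] {Q : Subgroup G} {z : G} (h : LX Q z) (α : G)
    (hαα : α * α = 1) (hαz : α * z = z * α) (hαQ : α ∉ Q)
    (Q₀ : Subgroup G)
    (hQ₀ : ∀ q : G, q ∈ Q₀ ↔ (q ∈ Q ∧ α * q * α⁻¹ * q⁻¹ ∈ Subgroup.zpowers z)) :
    Subgroup.closure ((fun q : G => α * q * α⁻¹ * q⁻¹) '' (Q : Set G)) =
      (Subgroup.center ↥Q₀).map Q₀.subtype := by
  classical
  obtain ⟨d, hQ2, hCQ, hN⟩ := h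
  have d' := d
  obtain ⟨hzQ, hz1, hzz, hcen, hcomm, hsqr, hrad⟩ := d'
  have hzinv : z⁻¹ = z := inv_eq_of_mul_eq_one_left hzz
  have hαN : ∀ b ∈ Q, α * b * α⁻¹ ∈ Q := hN α hαz
  have hcQ : ∀ q ∈ Q, α * q * α⁻¹ * q⁻¹ ∈ Q := fun q hq => Q.mul_mem (hαN q hq) (Q.inv_mem hq)
  have hQ₀' : ∀ q : G, q ∈ Q₀ ↔
      (q ∈ Q ∧ (α * q * α⁻¹ * q⁻¹ = 1 ∨ α * q * α⁻¹ * q⁻¹ = z)) := by
    intro q; rw [hQ₀ q, mem_zpowers_two hzz]
  have hQ₀Q : ∀ q ∈ Q₀, q ∈ Q := fun q hq => ((hQ₀' q).mp hq).1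
  have hQ₀conj : ∀ q0 ∈ Q₀, ∀ a ∈ Q,
      (a * (α * q0 * α⁻¹) = (α * q0 * α⁻¹) * a) ↔ (a * q0 = q0 * a) := by
    intro q0 hq0 a ha
    rcases ((hQ₀' q0).mp hq0).2 with h1 | h1
    · have e : α * q0 * α⁻¹ = q0 := by
        calc α * q0 * α⁻¹ = (α * q0 * α⁻¹ * q0⁻¹) * q0 := by group
          _ = q0 := by rw [h1, one_mul]
      rw [e]
    · have e : α * q0 * α⁻¹ = z * q0 := by
        calc α * q0 * α⁻¹ = (α * q0 * α⁻¹ * q0⁻¹) * q0 := by group
          _ = z * q0 := by rw [h1]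
      rw [e]
      exact comm_zmul_iff (hcen a ha)
  have hcQ₀ : ∀ q ∈ Q, α * q * α⁻¹ * q⁻¹ ∈ Q₀ := by
    intro q hq
    apply (hQ₀' _).mpr
    refine ⟨hcQ q hq, ?_⟩
    have hcc := hsqr _ (hcQ q hq)
    obtain ⟨c, hc⟩ : ∃ c : G, c = α * q * α⁻¹ * q⁻¹ := ⟨_, rfl⟩
    rw [← hc] at hcc ⊢
    have e : α * c * α⁻¹ * c = 1 := by
      rw [hc]
      calc α * (α * q * α⁻¹ * q⁻¹) * α⁻¹ * (α * q * α⁻¹ * q⁻¹)
          = (α * α) * q * (α * α)⁻¹ * q⁻¹ := by group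
        _ = 1 := by rw [hαα]; group
    have e2 : α * c * α⁻¹ * c⁻¹ = (c * c)⁻¹ := by
      calc α * c * α⁻¹ * c⁻¹ = (α * c * α⁻¹ * c) * (c * c)⁻¹ := by group
        _ = (c * c)⁻¹ := by rw [e, one_mul]
    rw [e2]
    rcases hcc with h1 | h1
    · left; rw [h1, inv_one]
    · right; rw [h1, hzinv]
  have hcomm₀ : ∀ q ∈ Q, ∀ q0 ∈ Q₀,
      q0 * (α * q * α⁻¹ * q⁻¹) = (α * q * α⁻¹ * q⁻¹) * q0 := by
    intro q hq q0 hq0
    have hq0Q := hQ₀Q q0 hq0
    apply (comm_mul_iff d hq0Q (hαN q hq) (Q.inv_mem hq)).mpr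
    rw [comm_inv_iff (a := q0) (x := q)]
    have h1 := hQ₀conj q0 hq0 (α * q * α⁻¹) (hαN q hq)
    have h2 := comm_conj_iff α q q0
    constructor
    · intro h3; exact (h2.mp (h1.mpr h3.symm)).symm
    · intro h3; exact (h1.mp (h2.mpr h3.symm)).symm
  obtain ⟨K, hK⟩ : ∃ K : Subgroup G,
      K = Subgroup.closure ((fun q : G => α * q * α⁻¹ * q⁻¹) '' (Q : Set G)) := ⟨_, rfl⟩
  rw [← hK]
  have hcK : ∀ q ∈ Q, α * q * α⁻¹ * q⁻¹ ∈ K := by
    intro q hq
    rw [hK]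
    exact Subgroup.subset_closure ⟨q, hq, rfl⟩
  have hKQ : K ≤ Q := by
    rw [hK, Subgroup.closure_le]
    rintro _ ⟨q, hq, rfl⟩
    exact hcQ q hq
  have hzK : z ∈ K := by
    by_cases hall : ∀ q ∈ Q, α * q * α⁻¹ * q⁻¹ = 1 ∨ α * q * α⁻¹ * q⁻¹ = z
    · by_contra hzK
      apply hαQ
      apply hCQ
      intro b hb
      rcases hall b hb with h1 | h1
      · exact (comm_eq_one_iff α b).mp h1
      · exfalso; apply hzK; rw [← h1]; exact hcK b hb
    · push Not at hall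
      obtain ⟨q, hq, hq1, hqz⟩ := hall
      obtain ⟨b, hbQ, hb⟩ := exists_moving d (hcQ q hq) hq1 hqz
      have e : z = (α * b * α⁻¹ * b⁻¹)⁻¹ * (α * (b * q) * α⁻¹ * (b * q)⁻¹) *
          (α * q * α⁻¹ * q⁻¹)⁻¹ := by
        have h2 : b * (α * q * α⁻¹ * q⁻¹) = z * (α * q * α⁻¹ * q⁻¹) * b := hb.eq
        calc z = (z * (α * q * α⁻¹ * q⁻¹) * b) * b⁻¹ * (α * q * α⁻¹ * q⁻¹)⁻¹ := by group
          _ = (b * (α * q * α⁻¹ * q⁻¹)) * b⁻¹ * (α * q * α⁻¹ * q⁻¹)⁻¹ := by rw [h2]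
          _ = (α * b * α⁻¹ * b⁻¹)⁻¹ * (α * (b * q) * α⁻¹ * (b * q)⁻¹) *
              (α * q * α⁻¹ * q⁻¹)⁻¹ := by group
      rw [e]
      exact K.mul_mem (K.mul_mem (K.inv_mem (hcK b hbQ)) (hcK (b * q) (Q.mul_mem hbQ hq)))
        (K.inv_mem (hcK q hq))
  have hmemZ : ∀ x, x ∈ (Subgroup.center ↥Q₀).map Q₀.subtype ↔
      (x ∈ Q₀ ∧ ∀ y ∈ Q₀, y * x = x * y) := by
    intro x
    constructor
    · intro hx
      obtain ⟨w, hw, rfl⟩ := Subgroup.mem_map.mp hx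
      refine ⟨w.2, fun y hy => ?_⟩
      have h5 := (Subgroup.mem_center_iff.mp hw) ⟨y, hy⟩
      exact congrArg Subtype.val h5
    · rintro ⟨hx, hxc⟩
      refine Subgroup.mem_map.mpr ⟨⟨x, hx⟩, ?_, rfl⟩
      rw [Subgroup.mem_center_iff]
      intro y
      apply Subtype.ext
      exact hxc y y.2
  apply le_antisymm
  · rw [hK, Subgroup.closure_le]
    rintro _ ⟨q, hq, rfl⟩
    exact (hmemZ _).mpr ⟨hcQ₀ q hq, fun y hy => hcomm₀ q hq y hy⟩
  · intro u hu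
    obtain ⟨huQ₀, huc⟩ := (hmemZ u).mp hu
    by_contra huK
    have huQ : u ∈ Q := hQ₀Q u huQ₀
    have hs : ∀ a ∈ (Set.toFinite (K : Set G)).toFinset, a ∈ Q := by
      intro a ha
      exact hKQ ((Set.Finite.mem_toFinset _).mp ha)
    have hnotcl : u ∉ Subgroup.closure
        (insert z (((Set.toFinite (K : Set G)).toFinset : Finset G) : Set G)) := by
      intro hcl
      apply huK
      have hle : Subgroup.closure
          (insert z (((Set.toFinite (K : Set G)).toFinset : Finset G) : Set G)) ≤ K := by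
        rw [Subgroup.closure_le]
        intro v hv
        rcases hv with h | h
        · rw [h]; exact hzK
        · exact (Set.Finite.mem_toFinset _).mp (Finset.mem_coe.mp h)
      exact hle hcl
    obtain ⟨g, hgQ, hgs, hgu⟩ := exists_comm d _ hs u huQ hnotcl
    have hgK : ∀ a ∈ K, g * a = a * g := fun a ha => hgs a ((Set.Finite.mem_toFinset _).mpr ha)
    have hgQ₀ : g ∈ Q₀ := by
      apply (hQ₀' g).mpr
      refine ⟨hgQ, ?_⟩
      apply hrad _ (hcQ g hgQ)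
      intro x hx
      apply (comm_mul_iff d hx (hαN g hgQ) (Q.inv_mem hgQ)).mpr
      rw [comm_inv_iff (a := x) (x := g)]
      have hq : α * x * α⁻¹ ∈ Q := hαN x hx
      have h1 := hgK _ (hcK _ hq)
      have e : α * (α * x * α⁻¹) * α⁻¹ = x := by
        calc α * (α * x * α⁻¹) * α⁻¹ = (α * α) * x * (α * α)⁻¹ := by group
          _ = x := by rw [hαα]; group
      rw [e] at h1
      have h2 := (comm_mul_iff d hgQ hx (Q.inv_mem hq)).mp h1
      rw [comm_inv_iff (a := g) (x := α * x * α⁻¹)] at h2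
      have h3 := comm_conj_iff α g (α * x * α⁻¹)
      rw [e] at h3
      constructor
      · intro h4; exact (h2.mpr (h3.mp h4.symm)).symm
      · intro h4; exact (h3.mpr (h2.mp h4.symm)).symm
    have h5 : g * u = u * g := huc g hgQ₀
    have h6 : g * u = z * u * g := hgu.eq
    apply hz1
    have h7 : z * (u * g) = 1 * (u * g) := by rw [one_mul, ← mul_assoc, ← h6, h5]
    exact mul_right_cancel h7

/-- An element of `Q₀` outside `C_Q(α)⟨z⟩` conjugates `α` to `α z`. -/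
theorem conj_of_not_le {Q : Subgroup G} {z : G} (hzz : z * z = 1) (α : G)
    (hαα : α * α = 1) (Q₀ : Subgroup G)
    (hQ₀ : ∀ q : G, q ∈ Q₀ ↔ (q ∈ Q ∧ α * q * α⁻¹ * q⁻¹ ∈ Subgroup.zpowers z))
    (hnle : ¬ Q₀ ≤ (Q ⊓ Subgroup.centralizer ({α} : Set G)) ⊔ Subgroup.zpowers z) :
    ∃ q ∈ Q, q * α * q⁻¹ = α * z := by
  have hαinv : α⁻¹ = α := inv_eq_of_mul_eq_one_left hαα
  obtain ⟨q0, hq0, hq0n⟩ := SetLike.not_le_iff_exists.mp hnle
  obtain ⟨hq0Q, hq0z⟩ := (hQ₀ q0).mp hq0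
  rcases (mem_zpowers_two hzz).mp hq0z with h1 | h1
  · exfalso
    apply hq0n
    apply Subgroup.mem_sup_left
    exact Subgroup.mem_inf.mpr ⟨hq0Q, mem_cz.mpr ((comm_eq_one_iff α q0).mp h1).symm⟩
  · refine ⟨q0, hq0Q, ?_⟩
    calc q0 * α * q0⁻¹ = q0 * α⁻¹ * q0⁻¹ := by rw [hαinv]
      _ = α⁻¹ * (α * q0 * α⁻¹ * q0⁻¹) := by group
      _ = α⁻¹ * z := by rw [h1]
      _ = α * z := by rw [hαinv]

end Cfsg.Agent.Helper26.XSInv
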