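import Mathlib
import Cfsg.Prelude.Def_MonsterType
import Cfsg.Prelude.Def_CaseTheorems
import Cfsg.Agent.Helper26.LargeXS2
import Cfsg.Agent.Helper26.XSTransfer
import Cfsg.Agent.Helper26.XSQuot

/-!
Large extraspecial subgroups modulo a subgroup of odd order (helper26).

`perm_prod`, `prod_semiconj`, `exists_fixed`: an averaging argument giving an element of an
extraspecial `Q` fixed by a group `A` of odd order and moving a given `A`-fixed element of `Q`.
`two_complement`, `two_complement_sub`: a group whose order is even and not divisible by `4` has a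
normal subgroup of odd order and index `2`.  `rad_of_not_four`, `mem_cent_sup`, `odd_quot_large`:
the image of `R = C_Q(A)` in `C_G(A) A / A` is large extraspecial.
-/

set_option autoImplicit false

namespace Cfsg.Agent.Helper26.XSOdd

open Cfsg Cfsg.Agent.Helper14.XS Cfsg.Agent.Helper26.LargeXS Cfsg.Agent.Helper26.LargeXS2
  Cfsg.Agent.Helper26.Singular Cfsg.Agent.Helper26.XSTransfer Cfsg.Agent.Helper26.XSQuot

variable {G : Type*} [Group G]

theorem perm_prod {Q : Subgroup G} {s : G} (d : Data Q s) {l₁ l₂ : List G} (h : l₁.Perm l₂) :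
    (∀ x ∈ l₁, x ∈ Q) → (l₁.prod = l₂.prod ∨ l₁.prod = s * l₂.prod) := by
  have d' := d
  obtain ⟨hsQ, hs1, hss, hcen, hcomm, hsqr, hrad⟩ := d'
  induction h with
  | nil => intro _; left; rfl
  | cons x h ih =>
    intro hl
    have hxQ : x ∈ Q := hl x List.mem_cons_self
    rcases ih (fun y hy => hl y (List.mem_cons_of_mem x hy)) with h1 | h1
    · left; rw [List.prod_cons, List.prod_cons, h1]
    · right
      rw [List.prod_cons, List.prod_cons, h1, ← mul_assoc, hcen x hxQ, mul_assoc]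
  | swap x y l =>
    intro hl
    have hxQ : x ∈ Q := hl x (by simp)
    have hyQ : y ∈ Q := hl y (by simp)
    simp only [List.prod_cons]
    rcases sb_of_comm d hyQ hxQ with h1 | h1
    · left
      calc y * (x * l.prod) = (y * x) * l.prod := (mul_assoc y x l.prod).symm
        _ = (x * y) * l.prod := by rw [h1.eq]
        _ = x * (y * l.prod) := mul_assoc x y l.prod
    · right
      calc y * (x * l.prod) = (y * x) * l.prod := (mul_assoc y x l.prod).symm
        _ = (s * x * y) * l.prod := by rw [h1.eq]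
        _ = s * (x * (y * l.prod)) := by simp only [mul_assoc]
  | trans h1 h2 ih1 ih2 =>
    intro hl
    have hl2 := fun x hx => hl x (h1.mem_iff.mpr hx)
    rcases ih1 hl with e1 | e1 <;> rcases ih2 hl2 with e2 | e2
    · left; rw [e1, e2]
    · right; rw [e1, e2]
    · right; rw [e1, e2]
    · left; rw [e1, e2, ← mul_assoc, hss, one_mul]

theorem prod_semiconj {s z : G} (l : List G) :
    (∀ c ∈ l, c * z = s * z * c ∧ c * s = s * c) →
      l.prod * z = s ^ l.length * z * l.prod := by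
  induction l with
  | nil => intro _; simp
  | cons c l ih =>
    intro h
    obtain ⟨h1, h2⟩ := h c List.mem_cons_self
    have ih' := ih (fun c' hc' => h c' (List.mem_cons_of_mem c hc'))
    have e2 : c * s ^ l.length = s ^ l.length * c :=
      (Commute.pow_right (show Commute c s from h2) l.length).eq
    rw [List.prod_cons, List.length_cons]
    calc c * l.prod * z = c * (l.prod * z) := mul_assoc _ _ _
      _ = c * (s ^ l.length * z * l.prod) := by rw [ih']
      _ = (c * s ^ l.length) * z * l.prod := by simp only [mul_assoc]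
      _ = (s ^ l.length * c) * z * l.prod := by rw [e2]
      _ = s ^ l.length * (c * z) * l.prod := by simp only [mul_assoc]
      _ = s ^ l.length * (s * z * c) * l.prod := by rw [h1]
      _ = s ^ (l.length + 1) * z * (c * l.prod) := by rw [pow_succ]; simp only [mul_assoc]

/-- A group `A` of odd order acting on `Q` (extraspecial-like with centre `⟨s⟩`) and fixing
`z ∈ Q`, `z ∉ ⟨s⟩`, fixes some element of `Q` not commuting with `z`. -/
theorem exists_fixed [Finite G] {Q : Subgroup G} {s z : G} (d : Data Q s) (A : Subgroup G)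
    (hAodd : Odd (Nat.card ↥A)) (hAQ : ∀ a ∈ A, ∀ q ∈ Q, a * q * a⁻¹ ∈ Q)
    (hAs : ∀ a ∈ A, a * s = s * a) (hAz : ∀ a ∈ A, a * z = z * a)
    (hzQ : z ∈ Q) (hz1 : z ≠ 1) (hzs : z ≠ s) :
    ∃ q ∈ Q, (∀ a ∈ A, a * q = q * a) ∧ SemiconjBy q z (s * z) := by
  classical
  have d' := d
  obtain ⟨hsQ, hs1, hss, hcen, hcomm, hsqr, hrad⟩ := d'
  obtain ⟨q0, hq0Q, hq0⟩ := exists_moving d hzQ hz1 hzs
  obtain ⟨L, hLnd, hLmem, hLlen⟩ : ∃ L : List G, L.Nodup ∧ (∀ a, a ∈ L ↔ a ∈ A) ∧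
      L.length = Nat.card ↥A := by
    refine ⟨(Set.toFinite (A : Set G)).toFinset.toList, Finset.nodup_toList _, ?_, ?_⟩
    · intro a
      rw [Finset.mem_toList, Set.Finite.mem_toFinset]
      exact Iff.rfl
    · rw [Finset.length_toList, ← Set.ncard_eq_toFinset_card (A : Set G) (Set.toFinite _)]
      exact (Nat.card_coe_set_eq (A : Set G)).symm
  obtain ⟨f, hf⟩ : ∃ f : G → G, ∀ a, f a = a * q0 * a⁻¹ := ⟨fun a => a * q0 * a⁻¹, fun a => rfl⟩
  obtain ⟨N, hN⟩ : ∃ N : G, N = (L.map f).prod := ⟨_, rfl⟩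
  have hfQ : ∀ x ∈ L.map f, x ∈ Q := by
    intro x hx
    obtain ⟨a, ha, rfl⟩ := List.mem_map.mp hx
    rw [hf]; exact hAQ a ((hLmem a).mp ha) q0 hq0Q
  have hNQ : N ∈ Q := by rw [hN]; exact Subgroup.list_prod_mem _ hfQ
  have hNz : N * z = s * z * N := by
    have h1 : (L.map f).prod * z = s ^ (L.map f).length * z * (L.map f).prod := by
      apply prod_semiconj
      intro c hc
      obtain ⟨a, ha, rfl⟩ := List.mem_map.mp hc
      have haA := (hLmem a).mp ha
      rw [hf]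
      constructor
      · have e1 : a * z = z * a := hAz a haA
        have e2 : a * s = s * a := hAs a haA
        have e3 : q0 * z = s * z * q0 := hq0.eq
        have e1' : a⁻¹ * z = z * a⁻¹ := by
          calc a⁻¹ * z = a⁻¹ * (z * a) * a⁻¹ := by group
            _ = a⁻¹ * (a * z) * a⁻¹ := by rw [e1]
            _ = z * a⁻¹ := by group
        calc a * q0 * a⁻¹ * z = a * q0 * (a⁻¹ * z) := by group
          _ = a * q0 * (z * a⁻¹) := by rw [e1']
          _ = a * (q0 * z) * a⁻¹ := by group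
          _ = a * (s * z * q0) * a⁻¹ := by rw [e3]
          _ = (a * s) * z * q0 * a⁻¹ := by group
          _ = (s * a) * z * q0 * a⁻¹ := by rw [e2]
          _ = s * (a * z) * q0 * a⁻¹ := by group
          _ = s * (z * a) * q0 * a⁻¹ := by rw [e1]
          _ = s * z * (a * q0 * a⁻¹) := by group
      · exact hcen _ (hAQ a haA q0 hq0Q)
    rw [List.length_map, hLlen] at h1
    obtain ⟨k, hk⟩ := hAodd
    rw [hk, pow_succ, pow_mul, pow_two, hss, one_pow, one_mul, ← hN] at h1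
    exact h1
  have hinv : ∀ b ∈ A, b * N * b⁻¹ = N ∨ b * N * b⁻¹ = s * N := by
    intro b hb
    have h1 : b * N * b⁻¹ = ((L.map (fun a => b * a)).map f).prod := by
      rw [hN]
      have h2 : b * (L.map f).prod * b⁻¹ = (MulAut.conj b) (L.map f).prod := rfl
      rw [h2, map_list_prod, List.map_map, List.map_map]
      congr 1
      apply List.map_congr_left
      intro a _
      show (MulAut.conj b) (f a) = f (b * a)
      rw [hf, hf, MulAut.conj_apply]; group
    have hperm : (L.map (fun a => b * a)).Perm L := by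
      apply (List.perm_ext_iff_of_nodup (List.Nodup.map (mul_right_injective b) hLnd) hLnd).mpr
      intro a
      rw [List.mem_map, hLmem]
      constructor
      · rintro ⟨a', ha', rfl⟩
        exact A.mul_mem hb ((hLmem a').mp ha')
      · intro ha
        exact ⟨b⁻¹ * a, (hLmem _).mpr (A.mul_mem (A.inv_mem hb) ha), by group⟩
    have h3 := perm_prod d (hperm.map f) (by
      intro x hx
      obtain ⟨a, ha, rfl⟩ := List.mem_map.mp hx
      obtain ⟨a', ha', rfl⟩ := List.mem_map.mp ha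
      rw [hf]; exact hAQ _ (A.mul_mem hb ((hLmem a').mp ha')) q0 hq0Q)
    rw [← h1, ← hN] at h3
    exact h3
  have hfix : ∀ b ∈ A, b * N = N * b := by
    intro b hb
    rcases hinv b hb with h1 | h1
    · calc b * N = (b * N * b⁻¹) * b := by group
        _ = N * b := by rw [h1]
    · exfalso
      have e2 : ∀ n : ℕ, b * s ^ n = s ^ n * b := fun n =>
        (Commute.pow_right (show Commute b s from hAs b hb) n).eq
      have e3 : b * N = s * N * b := by
        calc b * N = (b * N * b⁻¹) * b := by group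
          _ = s * N * b := by rw [h1]
      have hpow : ∀ n : ℕ, b ^ n * N = s ^ n * N * b ^ n := by
        intro n
        induction n with
        | zero => simp
        | succ n ih =>
          calc b ^ (n + 1) * N = b * (b ^ n * N) := by rw [pow_succ', mul_assoc]
            _ = b * (s ^ n * N * b ^ n) := by rw [ih]
            _ = (b * s ^ n) * N * b ^ n := by simp only [mul_assoc]
            _ = (s ^ n * b) * N * b ^ n := by rw [e2 n]
            _ = s ^ n * (b * N) * b ^ n := by simp only [mul_assoc]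
            _ = s ^ n * (s * N * b) * b ^ n := by rw [e3]
            _ = s ^ (n + 1) * N * b ^ (n + 1) := by
              rw [pow_succ s n, pow_succ' b n]; simp only [mul_assoc]
      have hn := hpow (orderOf b)
      rw [pow_orderOf_eq_one, one_mul, mul_one] at hn
      have hodd : Odd (orderOf b) := Odd.of_dvd_nat hAodd (Subgroup.orderOf_dvd_natCard A hb)
      obtain ⟨k, hk⟩ := hodd
      rw [hk, pow_succ, pow_mul, pow_two, hss, one_pow, one_mul] at hn
      apply hs1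
      have h5 : s * N = 1 * N := by rw [one_mul]; exact hn.symm
      exact mul_right_cancel h5
  exact ⟨N, hNQ, fun a ha => hfix a ha, hNz⟩

/-- A finite group of even order not divisible by `4` has a normal subgroup of odd order and
index `2`. -/
theorem two_complement {H : Type*} [Group H] [Finite H] (z : H) (hz : orderOf z = 2)
    (h4 : ¬ 4 ∣ Nat.card H) :
    ∃ K : Subgroup H, K.Normal ∧ (Nat.card ↥K).Coprime 2 ∧ ∀ c : H, c ∈ K ∨ c * z ∈ K := by
  haveI : Fact (Nat.Prime 2) := ⟨Nat.prime_two⟩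
  have h2 : 2 ∣ Nat.card H := by rw [← hz]; exact orderOf_dvd_natCard z
  have hmin : (Nat.card H).minFac = 2 := (Nat.minFac_eq_two_iff _).mpr h2
  obtain ⟨P⟩ : Nonempty (Sylow 2 H) := inferInstance
  obtain ⟨k, hk⟩ := P.2.exists_card_eq
  have hPdvd : Nat.card ↥(P : Subgroup H) ∣ Nat.card H :=
    Subgroup.card_subgroup_dvd_card (P : Subgroup H)
  have h2P : 2 ∣ Nat.card ↥(P : Subgroup H) := P.dvd_card_of_dvd_card h2
  have hk1 : Nat.card ↥(P : Subgroup H) = 2 := by
    rcases k with _ | _ | k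
    · rw [pow_zero] at hk; rw [hk] at h2P; exact absurd h2P (by norm_num)
    · rw [hk]; norm_num
    · exfalso; apply h4
      rw [hk] at hPdvd
      exact dvd_trans ⟨2 ^ k, by ring⟩ hPdvd
  have hPc : IsCyclic ↥(P : Subgroup H) := isCyclic_of_prime_card hk1
  have hcompl := IsCyclic.isComplement' hmin hPc
  have hnd := MonoidHom.not_dvd_card_ker_transferSylow P (hPc.normalizer_le_centralizer hmin)
  have hidx : (MonoidHom.transferSylow P (hPc.normalizer_le_centralizer hmin)).ker.index = 2 := by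
    rw [hcompl.symm.index_eq_card, hk1]
  refine ⟨(MonoidHom.transferSylow P (hPc.normalizer_le_centralizer hmin)).ker, inferInstance,
    ?_, ?_⟩
  · exact ((Nat.Prime.coprime_iff_not_dvd Nat.prime_two).mpr hnd).symm
  · intro c
    have hzK : z ∉ (MonoidHom.transferSylow P (hPc.normalizer_le_centralizer hmin)).ker := by
      intro hzK
      apply hnd
      have h5 := Subgroup.orderOf_dvd_natCard _ hzK
      rw [hz] at h5
      exact h5
    by_cases hc : c ∈ (MonoidHom.transferSylow P (hPc.normalizer_le_centralizer hmin)).ker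
    · left; exact hc
    · right
      exact (Subgroup.mul_mem_iff_of_index_two hidx).mpr
        ⟨fun h => absurd h hc, fun h => absurd h hzK⟩

theorem two_complement_sub [Finite G] (D A : Subgroup G) (z : G) (hzD : z ∈ D)
    (hz : orderOf z = 2) (h4 : ¬ 4 ∣ Nat.card ↥D)
    (hO : (Cfsg.oddCore ↥D).map D.subtype ≤ A) : ∀ c ∈ D, c ∈ A ∨ c * z ∈ A := by
  have hz' : orderOf (⟨z, hzD⟩ : ↥D) = 2 := (Subgroup.orderOf_coe (⟨z, hzD⟩ : ↥D)).symm.trans hz
  obtain ⟨K, hKn, hKc, hK⟩ := two_complement (⟨z, hzD⟩ : ↥D) hz' h4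
  have hKle : K ≤ Cfsg.oddCore ↥D := le_sSup ⟨hKn, hKc⟩
  intro c hc
  rcases hK ⟨c, hc⟩ with h | h
  · left
    exact hO (Subgroup.mem_map.mpr ⟨⟨c, hc⟩, hKle h, rfl⟩)
  · right
    exact hO (Subgroup.mem_map.mpr ⟨⟨c, hc⟩ * ⟨z, hzD⟩, hKle h, rfl⟩)

theorem rad_of_not_four [Finite G] (D Q : Subgroup G) (hQ2 : IsPGroup 2 ↥Q) (z : G)
    (hz : orderOf z = 2) (hzQ : z ∈ Q) (hzD : z ∈ D) (h4 : ¬ 4 ∣ Nat.card ↥D) :
    ∀ w ∈ Q, w ∈ D → w = 1 ∨ w = z := by
  haveI : Fact (Nat.Prime 2) := ⟨Nat.prime_two⟩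
  intro w hwQ hwD
  have hT2 : IsPGroup 2 ↥(Q ⊓ D) := hQ2.to_le inf_le_left
  obtain ⟨k, hk⟩ := hT2.exists_card_eq
  have hTdvd : Nat.card ↥(Q ⊓ D) ∣ Nat.card ↥D := Subgroup.card_dvd_of_le inf_le_right
  have hzT : Subgroup.zpowers z ≤ Q ⊓ D := by
    rw [Subgroup.zpowers_le]; exact Subgroup.mem_inf.mpr ⟨hzQ, hzD⟩
  have hzc : Nat.card ↥(Subgroup.zpowers z) = 2 := by rw [Nat.card_zpowers, hz]
  have hk1 : Nat.card ↥(Q ⊓ D) ≤ 2 := by
    rcases k with _ | _ | k
    · rw [hk]; norm_num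
    · rw [hk]; norm_num
    · exfalso; apply h4
      rw [hk] at hTdvd
      exact dvd_trans ⟨2 ^ k, by ring⟩ hTdvd
  have heq : Subgroup.zpowers z = Q ⊓ D :=
    Subgroup.eq_of_le_of_card_ge hzT (by rw [hzc]; exact hk1)
  have hw : w ∈ Subgroup.zpowers z := by rw [heq]; exact Subgroup.mem_inf.mpr ⟨hwQ, hwD⟩
  have hzz : z * z = 1 := by rw [← pow_two, ← hz]; exact pow_orderOf_eq_one z
  exact (mem_zpowers_two hzz).mp hw

theorem mem_cent_sup (A : Subgroup G) (m : G) :
    m ∈ Subgroup.centralizer (A : Set G) ⊔ A ↔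
      ∃ c, (∀ a ∈ A, c * a = a * c) ∧ ∃ a ∈ A, m = c * a := by
  constructor
  · intro hm
    refine sup_induction (C := fun m => ∃ c, (∀ a ∈ A, c * a = a * c) ∧ ∃ a ∈ A, m = c * a)
      hm ?_ ?_ ?_ ?_
    · intro x hx
      exact ⟨x, fun a ha => ((Subgroup.mem_centralizer_iff.mp hx) a ha).symm, 1, A.one_mem,
        (mul_one x).symm⟩
    · intro x hx
      exact ⟨1, fun a _ => by rw [one_mul, mul_one], x, hx, (one_mul x).symm⟩
    · exact ⟨1, fun a _ => by rw [one_mul, mul_one], 1, A.one_mem, (mul_one 1).symm⟩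
    · rintro x y ⟨c1, hc1, a1, ha1, rfl⟩ ⟨c2, hc2, a2, ha2, rfl⟩
      refine ⟨c1 * c2, ?_, a1 * a2, A.mul_mem ha1 ha2, ?_⟩
      · intro a ha
        calc c1 * c2 * a = c1 * (c2 * a) := by group
          _ = c1 * (a * c2) := by rw [hc2 a ha]
          _ = (c1 * a) * c2 := by group
          _ = (a * c1) * c2 := by rw [hc1 a ha]
          _ = a * (c1 * c2) := by group
      · calc c1 * a1 * (c2 * a2) = c1 * (a1 * c2) * a2 := by group
          _ = c1 * (c2 * a1) * a2 := by rw [hc2 a1 ha1]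
          _ = c1 * c2 * (a1 * a2) := by group
  · rintro ⟨c, hc, a, ha, rfl⟩
    exact Subgroup.mul_mem _
      (Subgroup.mem_sup_left (Subgroup.mem_centralizer_iff.mpr (fun b hb => (hc b hb).symm)))
      (Subgroup.mem_sup_right ha)

/-- The image of `R = C_Q(A)` in `M / A`, `M = C_G(A) A`, is large extraspecial. -/
theorem odd_quot_large [Finite G] {Q : Subgroup G} {z : G} (h : LX Q z) (A R M : Subgroup G)
    (hAz : ∀ a ∈ A, a * z = z * a) (hAodd : Odd (Nat.card ↥A))
    (hR : ∀ x, x ∈ R ↔ x ∈ Q ∧ ∀ a ∈ A, a * x = x * a)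
    (hR3 : 2 < Nat.card ↥R)
    (hD : ∀ c : G, (∀ a ∈ A, c * a = a * c) → (∀ x ∈ R, c * x = x * c) → c ∈ A ∨ c * z ∈ A)
    (hrad : ∀ w ∈ R, (∀ x ∈ R, x * w = w * x) → w = 1 ∨ w = z)
    (hM : ∀ m, m ∈ M ↔ ∃ c, (∀ a ∈ A, c * a = a * c) ∧ ∃ a ∈ A, m = c * a)
    [hn : (A.subgroupOf M).Normal]
    (c0 : G) (hc0A : ∀ a ∈ A, c0 * a = a * c0) (hc0R : c0 * z * c0⁻¹ ∈ R)
    (hc0z : c0 * z * c0⁻¹ ≠ z) :
    Cfsg.IsLargeExtraspecial ((R.subgroupOf M).map (QuotientGroup.mk' (A.subgroupOf M))) := by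
  classical
  obtain ⟨d, hQ2, hCQ, hN⟩ := h
  have d' := d
  obtain ⟨hzQ, hz1, hzz, hcen, hcomm, hsqr, hradQ⟩ := d'
  obtain ⟨π, hπ⟩ : ∃ π : ↥M →* ↥M ⧸ A.subgroupOf M, π = QuotientGroup.mk' (A.subgroupOf M) :=
    ⟨_, rfl⟩
  rw [← hπ]
  have hE1 : ∀ a b : ↥M, π a = π b ↔ (a : G)⁻¹ * (b : G) ∈ A := by
    intro a b
    have e : π a = π b ↔ a⁻¹ * b ∈ A.subgroupOf M := by rw [hπ]; exact QuotientGroup.eq
    exact e.trans Subgroup.mem_subgroupOf
  have hsurj : ∀ y : ↥M ⧸ A.subgroupOf M, ∃ c : ↥M, π c = y := by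
    intro y; rw [hπ]; exact QuotientGroup.mk'_surjective _ y
  have hRQ : ∀ x ∈ R, x ∈ Q := fun x hx => ((hR x).mp hx).1
  have hRA : ∀ x ∈ R, ∀ a ∈ A, a * x = x * a := fun x hx => ((hR x).mp hx).2
  have hCM : ∀ c : G, (∀ a ∈ A, c * a = a * c) → c ∈ M := by
    intro c hc
    exact (hM c).mpr ⟨c, hc, 1, A.one_mem, (mul_one c).symm⟩
  have hRM : ∀ x ∈ R, x ∈ M := fun x hx => hCM x (fun a ha => (hRA x hx a ha).symm)
  have hmemR : ∀ y, y ∈ (R.subgroupOf M).map π ↔ ∃ p : ↥M, (p : G) ∈ R ∧ π p = y := by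
    intro y
    rw [Subgroup.mem_map]
    constructor
    · rintro ⟨p, hp, rfl⟩; exact ⟨p, Subgroup.mem_subgroupOf.mp hp, rfl⟩
    · rintro ⟨p, hp, rfl⟩; exact ⟨p, Subgroup.mem_subgroupOf.mpr hp, rfl⟩
  have hpowA : ∀ (x : G) (k : ℕ), x ^ 2 ^ k = 1 → x ∈ A → x = 1 := by
    intro x k h1 hxA
    have hcop : Nat.Coprime (2 ^ k) (Nat.card ↥A) :=
      Nat.Coprime.pow_left k (Nat.coprime_two_left.mpr hAodd)
    exact orderOf_eq_one_iff.mp (Nat.eq_one_of_dvd_coprimes hcop (orderOf_dvd_of_pow_eq_one h1)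
      (Subgroup.orderOf_dvd_natCard A hxA))
  have hQpow : ∀ x ∈ Q, ∃ k : ℕ, x ^ 2 ^ k = 1 := by
    intro x hxQ
    obtain ⟨k, hk⟩ := hQ2 ⟨x, hxQ⟩
    refine ⟨k, ?_⟩
    have := congrArg Subtype.val hk
    simpa using this
  have hQA : ∀ x ∈ Q, x ∈ A → x = 1 := by
    intro x hxQ hxA
    obtain ⟨k, hk⟩ := hQpow x hxQ
    exact hpowA x k hk hxA
  have hkeycomm : ∀ (c x : G), x ∈ Q → (∀ a ∈ A, a * x = x * a) →
      (c * x)⁻¹ * (x * c) ∈ A → c * x = x * c := by
    intro c x hxQ hxA hmem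
    obtain ⟨k, hk⟩ := hQpow x hxQ
    have hcomm' : Commute x ((c * x)⁻¹ * (x * c)) := (hxA _ hmem).symm
    have e1 : c⁻¹ * x * c = x * ((c * x)⁻¹ * (x * c)) := by group
    have e2 : (c⁻¹ * x * c) ^ 2 ^ k = 1 := by
      have e0 : c⁻¹ * x * c = c⁻¹ * x * c⁻¹⁻¹ := by rw [inv_inv]
      rw [e0, conj_pow, hk]
      simp
    rw [e1, hcomm'.mul_pow, hk, one_mul] at e2
    have e3 : (c * x)⁻¹ * (x * c) = 1 := hpowA _ k e2 hmem
    calc c * x = (c * x) * ((c * x)⁻¹ * (x * c)) := by rw [e3, mul_one]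
      _ = x * c := by group
  have hsurj' : ∀ y : ↥M ⧸ A.subgroupOf M, ∃ c : G, (∀ a ∈ A, c * a = a * c) ∧
      ∃ hcM : c ∈ M, π ⟨c, hcM⟩ = y := by
    intro y
    obtain ⟨m, rfl⟩ := hsurj y
    obtain ⟨c, hc, a, ha, hm⟩ := (hM m).mp m.2
    refine ⟨c, hc, hCM c hc, ?_⟩
    apply (hE1 _ _).mpr
    show c⁻¹ * (m : G) ∈ A
    rw [hm]
    have e : c⁻¹ * (c * a) = a := by group
    rw [e]; exact ha
  have hzM : z ∈ M := hCM z (fun a ha => (hAz a ha).symm)
  have hzR : z ∈ R := (hR z).mpr ⟨hzQ, hAz⟩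
  obtain ⟨zM, hzMdef⟩ : ∃ zM : ↥M, (zM : G) = z := ⟨⟨z, hzM⟩, rfl⟩
  have hinjR : ∀ a b : ↥M, (a : G) ∈ R → (b : G) ∈ R → π a = π b → (a : G) = b := by
    intro a b ha hb hab
    have h1 := (hE1 a b).mp hab
    have h2 : (a : G)⁻¹ * (b : G) = 1 :=
      hQA _ (Q.mul_mem (Q.inv_mem (hRQ _ ha)) (hRQ _ hb)) h1
    calc (a : G) = a * ((a : G)⁻¹ * b) := by rw [h2, mul_one]
      _ = b := by group
  have dq : Data ((R.subgroupOf M).map π) (π zM) := by
    refine ⟨?_, ?_, ?_, ?_, ?_, ?_, ?_⟩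
    · exact (hmemR _).mpr ⟨zM, by rw [hzMdef]; exact hzR, rfl⟩
    · intro hh
      have h1 : π zM = π 1 := by rw [hh, map_one]
      have h2 := hinjR zM 1 (by rw [hzMdef]; exact hzR) R.one_mem h1
      rw [hzMdef] at h2
      exact hz1 h2
    · rw [← map_mul]
      have e : zM * zM = 1 := by
        apply Subtype.ext
        show (zM : G) * (zM : G) = 1
        rw [hzMdef]; exact hzz
      rw [e, map_one]
    · intro x hx
      obtain ⟨p, hp, rfl⟩ := (hmemR x).mp hx
      rw [← map_mul, ← map_mul]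
      apply congrArg π
      apply Subtype.ext
      show (p : G) * (zM : G) = (zM : G) * (p : G)
      rw [hzMdef]; exact hcen p (hRQ p hp)
    · intro a ha x hx
      obtain ⟨p, hp, rfl⟩ := (hmemR a).mp ha
      obtain ⟨r, hr, rfl⟩ := (hmemR x).mp hx
      have hkey : π (p * r * p⁻¹ * r⁻¹) = π p * π r * (π p)⁻¹ * (π r)⁻¹ := by
        simp only [map_mul, map_inv]
      rw [← hkey]
      rcases hcomm p (hRQ p hp) r (hRQ r hr) with h | h
      · left
        have e : p * r * p⁻¹ * r⁻¹ = 1 := Subtype.ext h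
        rw [e, map_one]
      · right
        apply congrArg π
        apply Subtype.ext
        rw [hzMdef]; exact h
    · intro x hx
      obtain ⟨p, hp, rfl⟩ := (hmemR x).mp hx
      rw [← map_mul]
      rcases hsqr p (hRQ p hp) with h | h
      · left
        have e : p * p = 1 := Subtype.ext h
        rw [e, map_one]
      · right
        apply congrArg π
        apply Subtype.ext
        rw [hzMdef]; exact h
    · intro w hw hcw
      obtain ⟨p, hp, rfl⟩ := (hmemR w).mp hw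
      have hcomm_p : ∀ x ∈ R, x * (p : G) = (p : G) * x := by
        intro x hx
        have h1 := hcw (π ⟨x, hRM x hx⟩) ((hmemR _).mpr ⟨⟨x, hRM x hx⟩, hx, rfl⟩)
        rw [← map_mul, ← map_mul] at h1
        exact hinjR _ _ (R.mul_mem hx hp) (R.mul_mem hp hx) h1
      rcases hrad (p : G) hp hcomm_p with h | h
      · left
        have e : p = 1 := Subtype.ext h
        rw [e, map_one]
      · right
        apply congrArg π
        apply Subtype.ext
        rw [hzMdef]; exact h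
  have hP2 : IsPGroup 2 ↥(R.subgroupOf M) := (hQ2.to_le (fun x hx => hRQ x hx)).comap_subtype
  have hCQ' : ∀ c : ↥M ⧸ A.subgroupOf M,
      (∀ b ∈ (R.subgroupOf M).map π, c * b = b * c) → c ∈ (R.subgroupOf M).map π := by
    intro cb hcb
    obtain ⟨c, hcA, hcM, rfl⟩ := hsurj' cb
    have hcx : ∀ x ∈ R, c * x = x * c := by
      intro x hx
      have h1 := hcb (π ⟨x, hRM x hx⟩) ((hmemR _).mpr ⟨⟨x, hRM x hx⟩, hx, rfl⟩)
      rw [← map_mul, ← map_mul] at h1
      exact hkeycomm c x (hRQ x hx) (hRA x hx) ((hE1 _ _).mp h1)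
    rcases hD c hcA hcx with h | h
    · have e : π ⟨c, hcM⟩ = π 1 := by
        apply (hE1 _ _).mpr
        show c⁻¹ * (1 : G) ∈ A
        rw [mul_one]; exact A.inv_mem h
      rw [e, map_one]; exact Subgroup.one_mem _
    · have e : π ⟨c, hcM⟩ = π zM := by
        apply (hE1 _ _).mpr
        show c⁻¹ * (zM : G) ∈ A
        rw [hzMdef]
        have hzc : c * z = z * c := hcx z hzR
        have hzinv : z⁻¹ = z := inv_eq_of_mul_eq_one_left hzz
        have e2 : c⁻¹ * z = (c * z)⁻¹ := by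
          calc c⁻¹ * z = c⁻¹ * (z * c) * c⁻¹ := by group
            _ = c⁻¹ * (c * z) * c⁻¹ := by rw [hzc]
            _ = z * c⁻¹ := by group
            _ = z⁻¹ * c⁻¹ := by rw [hzinv]
            _ = (c * z)⁻¹ := by group
        rw [e2]; exact A.inv_mem h
      rw [e]; exact (hmemR _).mpr ⟨zM, by rw [hzMdef]; exact hzR, rfl⟩
  have hN' : ∀ c : ↥M ⧸ A.subgroupOf M, c * π zM = π zM * c →
      ∀ b ∈ (R.subgroupOf M).map π, c * b * c⁻¹ ∈ (R.subgroupOf M).map π := by
    intro cb hcb bb hbb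
    obtain ⟨c, hcA, hcM, rfl⟩ := hsurj' cb
    obtain ⟨p, hp, rfl⟩ := (hmemR bb).mp hbb
    rw [← map_mul, ← map_mul] at hcb
    have hcz : c * z = z * c := by
      have h1 := (hE1 _ _).mp hcb
      have h2 : (c * (zM : G))⁻¹ * ((zM : G) * c) ∈ A := h1
      rw [hzMdef] at h2
      exact hkeycomm c z hzQ hAz h2
    have h1 : c * (p : G) * c⁻¹ ∈ Q := hN c hcz p (hRQ p hp)
    have h2 : c * (p : G) * c⁻¹ ∈ R := by
      apply (hR _).mpr
      refine ⟨h1, ?_⟩
      intro a ha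
      have e1 : c * a = a * c := hcA a ha
      have e2 : a * (p : G) = (p : G) * a := hRA p hp a ha
      have e1' : c⁻¹ * a = a * c⁻¹ := by
        calc c⁻¹ * a = c⁻¹ * (a * c) * c⁻¹ := by group
          _ = c⁻¹ * (c * a) * c⁻¹ := by rw [e1]
          _ = a * c⁻¹ := by group
      calc a * (c * (p : G) * c⁻¹) = (a * c) * p * c⁻¹ := by group
        _ = (c * a) * p * c⁻¹ := by rw [e1]
        _ = c * (a * p) * c⁻¹ := by group
        _ = c * (p * a) * c⁻¹ := by rw [e2]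
        _ = c * p * (a * c⁻¹) := by group
        _ = c * p * (c⁻¹ * a) := by rw [e1']
        _ = c * (p : G) * c⁻¹ * a := by group
    have hkey : π (⟨c, hcM⟩ * p * ⟨c, hcM⟩⁻¹) = π ⟨c, hcM⟩ * π p * (π ⟨c, hcM⟩)⁻¹ := by
      simp only [map_mul, map_inv]
    rw [← hkey]
    exact (hmemR _).mpr ⟨⟨c, hcM⟩ * p * ⟨c, hcM⟩⁻¹, h2, rfl⟩
  have hLXq : LX ((R.subgroupOf M).map π) (π zM) := ⟨dq, hP2.map π, hCQ', hN'⟩
  obtain ⟨x0, hx0R, hx0⟩ := exists_notMem_list R [1, z] (by
    show 2 < Nat.card ↥R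
    exact hR3)
  have hx01 : x0 ≠ 1 := fun h => hx0 (by rw [h]; simp)
  have hx0z : x0 ≠ z := fun h => hx0 (by rw [h]; simp)
  have dR : Data R z := ⟨hzR, hz1, hzz, fun x hx => hcen x (hRQ x hx),
    fun a ha x hx => hcomm a (hRQ a ha) x (hRQ x hx), fun x hx => hsqr x (hRQ x hx), hrad⟩
  obtain ⟨q1, hq1R, hq1⟩ := exists_moving dR hx0R hx01 hx0z
  have hnc1 : q1 * x0 ≠ x0 * q1 := by
    intro h
    have h2 : q1 * x0 = z * x0 * q1 := hq1.eq
    apply hz1
    have h3 : z * (x0 * q1) = 1 * (x0 * q1) := by rw [one_mul, ← mul_assoc, ← h2, h]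
    exact mul_right_cancel h3
  have hXS : Cfsg.IsExtraspecial 2 ↥((R.subgroupOf M).map π) := by
    refine to_extraspecial _ _ dq ⟨π ⟨q1, hRM q1 hq1R⟩, (hmemR _).mpr ⟨_, hq1R, rfl⟩,
      π ⟨x0, hRM x0 hx0R⟩, (hmemR _).mpr ⟨_, hx0R, rfl⟩, ?_⟩
    intro hh
    rw [← map_mul, ← map_mul] at hh
    exact hnc1 (hinjR _ _ (R.mul_mem hq1R hx0R) (R.mul_mem hx0R hq1R) hh)
  have hc0M : c0 ∈ M := hCM c0 hc0A
  obtain ⟨cc, hcc⟩ : ∃ cc : ↥M, (cc : G) = c0 := ⟨⟨c0, hc0M⟩, rfl⟩
  have hkey : π (cc * zM * cc⁻¹) = π cc * π zM * (π cc)⁻¹ := by simp only [map_mul, map_inv]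
  have hcoe : ((cc * zM * cc⁻¹ : ↥M) : G) = c0 * z * c0⁻¹ := by
    show (cc : G) * (zM : G) * (cc : G)⁻¹ = c0 * z * c0⁻¹
    rw [hcc, hzMdef]
  refine large_of_LX hLXq hXS (π cc) ?_ ?_
  · rw [← hkey]
    exact (hmemR _).mpr ⟨_, by rw [hcoe]; exact hc0R, rfl⟩
  · intro hh
    rw [← hkey] at hh
    have h2 := hinjR _ _ (by rw [hcoe]; exact hc0R) (by rw [hzMdef]; exact hzR) hh
    rw [hcoe, hzMdef] at h2
    exact hc0z h2

end Cfsg.Agent.Helper26.XSOdd
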